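import Mathlib
import Cfsg.Agent.Lib.Helper8.Fischer

/-!
# Further consequences of the kernel property for classes of 3-transpositions
-/

set_option autoImplicit false

namespace Cfsg.Agent.Lib.Helper8

open Cfsg.Agent.Lib.Helper89

variable {G : Type*} [Group G] {D : Set G}

local notation:75 g:76 " ⋆ " x:75 => g * x * g⁻¹

/-- `y` and `z` are conjugate under the subgroup generated by `D_d`. -/
def Cn (D : Set G) (d y z : G) : Prop := ∃ h ∈ Subgroup.closure (Dp D d), h ⋆ y = z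

theorem Cn.refl (d y : G) : Cn D d y y := ⟨1, one_mem _, by simp⟩

theorem Cn.symm {d y z : G} (h : Cn D d y z) : Cn D d z y := by
  obtain ⟨g, hg, rfl⟩ := h
  exact ⟨g⁻¹, inv_mem hg, cj_inv_cj g y⟩

theorem Cn.trans {d x y z : G} (h : Cn D d x y) (h' : Cn D d y z) : Cn D d x z := by
  obtain ⟨g, hg, rfl⟩ := h
  obtain ⟨k, hk, rfl⟩ := h'
  exact ⟨k * g, mul_mem hk hg, cj_mul k g x⟩

theorem conj_mem_closure_Dp (hD : Cfsg.IsThreeTranspositionClass D) (g d : G) {h : G}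
    (hh : h ∈ Subgroup.closure (Dp D d)) : g ⋆ h ∈ Subgroup.closure (Dp D (g ⋆ d)) := by
  induction hh using Subgroup.closure_induction with
  | mem x hx => exact Subgroup.subset_closure (Dp_eqv hD g d x hx)
  | one => simp
  | mul x y _ _ h₁ h₂ =>
    have : g ⋆ (x * y) = (g ⋆ x) * (g ⋆ y) := by group
    rw [this]; exact mul_mem h₁ h₂
  | inv x _ h₁ =>
    have : g ⋆ x⁻¹ = (g ⋆ x)⁻¹ := by group
    rw [this]; exact inv_mem h₁

theorem Cn.conj (hD : Cfsg.IsThreeTranspositionClass D) (g : G) {d y z : G} (h : Cn D d y z) :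
    Cn D (g ⋆ d) (g ⋆ y) (g ⋆ z) := by
  obtain ⟨k, hk, rfl⟩ := h
  exact ⟨g ⋆ k, conj_mem_closure_Dp hD g d hk, by group⟩

theorem Cn.conj_iff (hD : Cfsg.IsThreeTranspositionClass D) (g : G) {d y z : G} :
    Cn D (g ⋆ d) (g ⋆ y) (g ⋆ z) ↔ Cn D d y z := by
  refine ⟨fun h => ?_, Cn.conj hD g⟩
  have := Cn.conj hD g⁻¹ h
  rwa [cj_inv_cj, cj_inv_cj, cj_inv_cj] at this

theorem Cn_of_not_commute (hD : Cfsg.IsThreeTranspositionSet D) {d y z : G} (hy : y ∈ Dp D d)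
    (hz : z ∈ Dp D d) (h : ¬ Commute y z) : Cn D d y z :=
  ⟨y * z * y, mul_mem (mul_mem (Subgroup.subset_closure hy) (Subgroup.subset_closure hz))
    (Subgroup.subset_closure hy), (swap_star hD hy.1 hz.1 h).1⟩

theorem conn_aux [Finite G] (hD : Cfsg.IsThreeTranspositionClass D) (hK : KerProp D)
    (hw : ∃ a ∈ D, ∃ b ∈ D, a ≠ b ∧ Commute a b) {d y z : G} (hd : d ∈ D) (hy : y ∈ Dp D d)
    (hz : z ∈ Dp D d) (h : ¬ Cn D d y z) : Ap D d ∩ Ap D y = Ap D d ∩ Ap D z := by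
  have hT := hD.1
  have hyz : Commute y z := by
    by_contra hc
    exact h (Cn_of_not_commute hT hy hz hc)
  have hne : y ≠ z := by
    rintro rfl
    exact h (Cn.refl d y)
  have hcard : (Ap D d ∩ Ap D z).ncard = (Ap D d ∩ Ap D y).ncard :=
    ncard_inter_eq_of_R2 (Ap_eqv hD)
      (sig hD hK hw d hd y hy.1 hy.2.1.symm hy.2.2 d hd z hz.1 hz.2.1.symm hz.2.2)
  by_cases h1 : Ap D d ∩ Ap D y ⊆ Ap D z
  · have hs : Ap D d ∩ Ap D y ⊆ Ap D d ∩ Ap D z := fun p hp => ⟨hp.1, h1 hp⟩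
    exact Set.eq_of_subset_of_ncard_le hs hcard.le
  · by_cases h2 : Ap D d ∩ Ap D z ⊆ Ap D y
    · have hs : Ap D d ∩ Ap D z ⊆ Ap D d ∩ Ap D y := fun p hp => ⟨hp.1, h2 hp⟩
      exact (Set.eq_of_subset_of_ncard_le hs hcard.ge).symm
    · exfalso
      obtain ⟨p, ⟨hpd, hpy⟩, hpz⟩ := Set.not_subset.1 h1
      obtain ⟨p', ⟨hp'd, hp'z⟩, hp'y⟩ := Set.not_subset.1 h2
      have hzp : Commute z p := by
        by_contra hc
        exact hpz ⟨hpd.1, hc⟩
      have hyp' : Commute y p' := by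
        by_contra hc
        exact hp'y ⟨hp'd.1, hc⟩
      obtain ⟨s1, s2, -⟩ := string_swap hT hd hy.1 hpd.1 hy.2.2 hpd.2 hpy.2
      set g := p * (d * y * p * y * d) with hg
      have s3 : g ⋆ z = z := by
        rw [cj_eq_self_iff]
        have hzd : Commute z d := hz.2.2.symm
        have hzy : Commute z y := hyz.symm
        exact (hzp.mul_right ((((hzd.mul_right hzy).mul_right hzp).mul_right hzy).mul_right
          hzd)).symm
      have h3 : ¬ Cn D y d z := by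
        intro hc
        apply h
        rw [← Cn.conj_iff hD g, s1, s2, s3]
        exact hc
      apply h3
      have hdy : d ∈ Dp D y := ⟨hd, hy.2.1.symm, hy.2.2.symm⟩
      have hzy : z ∈ Dp D y := ⟨hz.1, hne.symm, hyz⟩
      have hp'y' : p' ∈ Dp D y := by
        refine ⟨hp'd.1, ?_, hyp'⟩
        rintro rfl
        exact hp'd.2 hy.2.2
      exact (Cn_of_not_commute hT hdy hp'y' hp'd.2).trans
        (Cn_of_not_commute hT hp'y' hzy (fun hc => hp'z.2 hc.symm))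

/-- Under the kernel property (and width at least two) `D_d` is a single conjugacy class of the
subgroup it generates. -/
theorem conn [Finite G] (hD : Cfsg.IsThreeTranspositionClass D) (hK : KerProp D)
    (hw : ∃ a ∈ D, ∃ b ∈ D, a ≠ b ∧ Commute a b) {d : G} (hd : d ∈ D) :
    ∀ y ∈ Dp D d, ∀ z ∈ Dp D d, Cn D d y z := by
  have hT := hD.1
  intro y hy z hz
  by_contra hcon
  -- `μ = 0` at the point `d`
  have mu0 : ∀ p ∈ Ap D d, ∀ x ∈ Dp D d, ¬ Commute x p := by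
    intro p hp x' hx'
    have h1 : ∃ x ∈ Dp D d, ¬ Commute x p := by
      by_contra hc
      push Not at hc
      have hsub : Dp D d ⊆ Dp D p := by
        intro x hx
        refine ⟨hx.1, ?_, (hc x hx).symm⟩
        rintro rfl
        exact hp.2 hx.2.2
      have h2 := (Dp_eqv hD).eq_of_subset hD hd hp.1 hsub
      have h3 := w_trivial hD hK hw hd hp.1 h2
      rw [← h3] at hp
      exact hp.2 (Commute.refl d)
    obtain ⟨x, hx, hxp⟩ := h1
    have hpx : p ∈ Ap D d ∩ Ap D x := ⟨hp, hp.1, hxp⟩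
    by_cases hc : Cn D d x x'
    · have h2 : ∃ w ∈ Dp D d, ¬ Cn D d x w := by
        by_cases hxy : Cn D d x y
        · exact ⟨z, hz, fun hxz => hcon (hxy.symm.trans hxz)⟩
        · exact ⟨y, hy, hxy⟩
      obtain ⟨w, hw', hxw⟩ := h2
      have hx'w : ¬ Cn D d x' w := fun h => hxw (hc.trans h)
      rw [conn_aux hD hK hw hd hx hw' hxw, ← conn_aux hD hK hw hd hx' hw' hx'w] at hpx
      exact hpx.2.2
    · rw [conn_aux hD hK hw hd hx hx' hc] at hpx
      exact hpx.2.2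
  -- transport to all points
  have mu0' : ∀ d' ∈ D, ∀ p ∈ Ap D d', ∀ x ∈ Dp D d', ¬ Commute x p := by
    intro d' hd' p hp x hx
    obtain ⟨g, rfl⟩ := ttc_isConj hD hd hd'
    have hp' : g⁻¹ ⋆ p ∈ Ap D d := by
      rw [← (Ap_eqv hD).mem_iff g, cj_cj_inv]; exact hp
    have hx' : g⁻¹ ⋆ x ∈ Dp D d := by
      rw [← (Dp_eqv hD).mem_iff g, cj_cj_inv]; exact hx
    have := mu0 _ hp' _ hx'
    rwa [Commute.conj_iff] at this
  have hr : InvRel (fun x y : G => x = y ∨ (x ∈ D ∧ y ∈ D ∧ Commute x y)) :=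
    { refl := fun x => Or.inl rfl
      symm := by
        rintro x y (rfl | ⟨h1, h2, h3⟩)
        · exact Or.inl rfl
        · exact Or.inr ⟨h2, h1, h3.symm⟩
      trans := by
        rintro x y z (rfl | ⟨h1, h2, h3⟩) (rfl | ⟨h4, h5, h6⟩)
        · exact Or.inl rfl
        · exact Or.inr ⟨h4, h5, h6⟩
        · exact Or.inr ⟨h1, h2, h3⟩
        · by_cases hxy : y = x
          · rw [hxy] at h6
            exact Or.inr ⟨h1, h5, h6⟩
          · refine Or.inr ⟨h1, h5, ?_⟩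
            by_contra hc
            exact mu0' x h1 z ⟨h5, hc⟩ y ⟨h2, hxy, h3⟩ h6
      conj := by
        rintro g x y (rfl | ⟨h1, h2, h3⟩)
        · exact Or.inl rfl
        · exact Or.inr ⟨ttc_conj_mem hD g h1, ttc_conj_mem hD g h2, (Commute.conj_iff g).2 h3⟩ }
  obtain ⟨a, ha, b, hb, hab, hc⟩ := hw
  have huniv := blk hD hK hr ha hb hab hc (Or.inr ⟨ha, hb, hc⟩)
  obtain ⟨c, hc', hac⟩ := exists_not_commute hD ⟨a, ha, b, hb, hab⟩ ha
  rcases huniv a ha c hc' with rfl | ⟨-, -, h⟩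
  · exact hac (Commute.refl a)
  · exact hac h

/-! ### Maximal commuting sets -/

/-- Two members of `D` in a common 2-subgroup commute. -/
theorem commute_of_mem_two_group (hD : Cfsg.IsThreeTranspositionSet D) {S : Subgroup G}
    (hS : IsPGroup 2 S) {x y : G} (hx : x ∈ D) (hy : y ∈ D) (hxS : x ∈ S) (hyS : y ∈ S) :
    Commute x y := by
  rcases hD.2 x hx y hy with h | h
  · exact commute_of_sq (tt_mul_self hD hx) (tt_mul_self hD hy) h
  · obtain ⟨k, hk⟩ := hS ⟨x * y, mul_mem hxS hyS⟩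
    have hk' : (x * y) ^ (2 ^ k) = 1 := by simpa using congrArg Subtype.val hk
    have h4 : orderOf (x * y) ∣ Nat.gcd (2 ^ k) 3 :=
      Nat.dvd_gcd (orderOf_dvd_of_pow_eq_one hk') (orderOf_dvd_of_pow_eq_one h)
    have h5 : Nat.gcd (2 ^ k) 3 = 1 := Nat.Coprime.pow_left k (by norm_num)
    rw [h5, Nat.dvd_one, orderOf_eq_one_iff] at h4
    have : x = y := by
      rw [← tt_inv hD hy]; exact eq_inv_of_mul_eq_one_left h4
    rw [this]

/-- A commuting subset of `D` of maximal size is the set of members of `D` in any 2-subgroup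
containing it. -/
theorem max_commuting_eq [Finite G] (hD : Cfsg.IsThreeTranspositionSet D) {E : Set G}
    (hmax : ∀ E' : Set G, E' ⊆ D → (∀ a ∈ E', ∀ b ∈ E', Commute a b) → E'.ncard ≤ E.ncard)
    (hE : E ⊆ D) {S : Subgroup G} (hS : IsPGroup 2 S) (hES : E ⊆ S) :
    E = {x | x ∈ D ∧ x ∈ S} := by
  have hs : E ⊆ {x | x ∈ D ∧ x ∈ S} := fun x hx => ⟨hE hx, hES hx⟩
  apply Set.eq_of_subset_of_ncard_le hs
  exact hmax _ (fun x hx => hx.1)
    (fun a ha b hb => commute_of_mem_two_group hD hS ha.1 hb.1 ha.2 hb.2)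

/-- Sylow's theorem inside a subgroup `X`, stated in the ambient group. -/
theorem exists_sylow_conj_in [Finite G] (X A B : Subgroup G) (hA : IsPGroup 2 A)
    (hB : IsPGroup 2 B) (hAX : A ≤ X) (hBX : B ≤ X) :
    ∃ (T₁ T₂ : Subgroup G) (x : G), x ∈ X ∧ IsPGroup 2 T₁ ∧ IsPGroup 2 T₂ ∧ A ≤ T₁ ∧ B ≤ T₂ ∧
      ∀ y, y ∈ T₁ ↔ x ⋆ y ∈ T₂ := by
  have : Fact (Nat.Prime 2) := ⟨Nat.prime_two⟩
  obtain ⟨P₁, h₁⟩ := (hA.comap_subtype (K := X)).exists_le_sylow
  obtain ⟨P₂, h₂⟩ := (hB.comap_subtype (K := X)).exists_le_sylow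
  obtain ⟨x, hx⟩ := MulAction.exists_smul_eq X P₁ P₂
  refine ⟨(P₁ : Subgroup X).map X.subtype, (P₂ : Subgroup X).map X.subtype, x, x.2,
    P₁.isPGroup'.map _, P₂.isPGroup'.map _, ?_, ?_, ?_⟩
  · intro a ha
    exact ⟨⟨a, hAX ha⟩, h₁ (show (⟨a, hAX ha⟩ : X) ∈ A.comap X.subtype from ha), rfl⟩
  · intro b hb
    exact ⟨⟨b, hBX hb⟩, h₂ (show (⟨b, hBX hb⟩ : X) ∈ B.comap X.subtype from hb), rfl⟩
  · intro y
    have hx' : ∀ z : X, z ∈ (P₁ : Subgroup X) ↔ x * z * x⁻¹ ∈ (P₂ : Subgroup X) := by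
      intro z
      rw [← hx, Sylow.coe_subgroup_smul]
      have : x * z * x⁻¹ = MulAut.conj x • z := rfl
      rw [this, Subgroup.smul_mem_pointwise_smul_iff]
    constructor
    · rintro ⟨z, hz, rfl⟩
      exact ⟨x * z * x⁻¹, (hx' z).1 hz, rfl⟩
    · rintro ⟨z, hz, hzy⟩
      refine ⟨x⁻¹ * z * x, ?_, ?_⟩
      · rw [SetLike.mem_coe, hx']
        have : x * (x⁻¹ * z * x) * x⁻¹ = z := by group
        rw [this]; exact hz
      · have h3 : (z : G) = (x : G) * y * (x : G)⁻¹ := hzy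
        simp only [Subgroup.coe_subtype, Subgroup.coe_mul, InvMemClass.coe_inv]
        rw [h3]; group

/-- The normalizer of a commuting subset of `D` of maximal size contains a Sylow 2-subgroup. -/
theorem exists_sylow_le_normalizer [Finite G] (hD : Cfsg.IsThreeTranspositionClass D) {E : Set G}
    (hE : E ⊆ D) (hc : ∀ a ∈ E, ∀ b ∈ E, Commute a b)
    (hmax : ∀ E' : Set G, E' ⊆ D → (∀ a ∈ E', ∀ b ∈ E', Commute a b) → E'.ncard ≤ E.ncard) :
    ∃ P : Sylow 2 G, (P : Subgroup G) ≤ Subgroup.normalizer E := by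
  have : Fact (Nat.Prime 2) := ⟨Nat.prime_two⟩
  have h2 : IsPGroup 2 (Subgroup.closure E) :=
    isPGroup_closure_of_commute (fun x hx => tt_mul_self hD.1 (hE hx)) (fun x hx y hy => hc x hx y hy)
  obtain ⟨P, hP⟩ := h2.exists_le_sylow
  refine ⟨P, fun g hg => ?_⟩
  have hEq := max_commuting_eq hD.1 hmax hE P.isPGroup'
    (fun x hx => hP (Subgroup.subset_closure hx))
  rw [Subgroup.mem_set_normalizer_iff]
  intro n
  rw [hEq]
  constructor
  · rintro ⟨h1, h3⟩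
    exact ⟨ttc_conj_mem hD g h1, mul_mem (mul_mem hg h3) (inv_mem hg)⟩
  · rintro ⟨h1, h3⟩
    refine ⟨?_, ?_⟩
    · have := ttc_conj_mem hD g⁻¹ h1
      rwa [cj_inv_cj] at this
    · have := mul_mem (mul_mem (inv_mem hg) h3) hg
      have e : g⁻¹ * (g * n * g⁻¹) * g = n := by group
      rwa [e] at this

/-- Under the kernel property the normalizer of a commuting subset of maximal size is doubly
transitive on it. -/
theorem normalizer_two_transitive [Finite G] (hD : Cfsg.IsThreeTranspositionClass D)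
    (hK : KerProp D) {E : Set G} (hE : E ⊆ D) (hc : ∀ a ∈ E, ∀ b ∈ E, Commute a b)
    (hmax : ∀ E' : Set G, E' ⊆ D → (∀ a ∈ E', ∀ b ∈ E', Commute a b) → E'.ncard ≤ E.ncard) :
    ∀ a ∈ E, ∀ b ∈ E, ∀ c ∈ E, ∀ d ∈ E, a ≠ b → c ≠ d →
      ∃ g ∈ Subgroup.normalizer E, g * a * g⁻¹ = c ∧ g * b * g⁻¹ = d := by
  intro a ha b hb c hc' d hd hab hcd
  have hT := hD.1
  have hw : ∃ a ∈ D, ∃ b ∈ D, a ≠ b ∧ Commute a b := ⟨a, hE ha, b, hE hb, hab, hc a ha b hb⟩
  obtain ⟨g, hg1, hg2⟩ := sig hD hK hw a (hE ha) b (hE hb) hab (hc a ha b hb) c (hE hc') d (hE hd)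
    hcd (hc c hc' d hd)
  set E' : Set G := (fun x => g ⋆ x) '' E with hE'
  have hE'D : E' ⊆ D := by
    rintro _ ⟨x, hx, rfl⟩
    exact ttc_conj_mem hD g (hE hx)
  have hE'c : ∀ a ∈ E', ∀ b ∈ E', Commute a b := by
    rintro _ ⟨x, hx, rfl⟩ _ ⟨y, hy, rfl⟩
    exact (Commute.conj_iff g).2 (hc x hx y hy)
  have hE'card : E'.ncard = E.ncard := Set.ncard_image_of_injective _ (cj_injective g)
  have hmax' : ∀ E'' : Set G, E'' ⊆ D → (∀ a ∈ E'', ∀ b ∈ E'', Commute a b) →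
      E''.ncard ≤ E'.ncard := by
    intro E'' h1 h2
    rw [hE'card]; exact hmax E'' h1 h2
  have hcE' : c ∈ E' := ⟨a, ha, hg1⟩
  have hdE' : d ∈ E' := ⟨b, hb, hg2⟩
  set X := Subgroup.centralizer ({c, d} : Set G) with hX
  have hAX : Subgroup.closure E ≤ X := by
    rw [Subgroup.closure_le]
    intro x hx
    rw [SetLike.mem_coe, Subgroup.mem_centralizer_iff]
    rintro y (rfl | rfl)
    · exact (hc _ hc' x hx).eq
    · exact (hc _ hd x hx).eq
  have hBX : Subgroup.closure E' ≤ X := by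
    rw [Subgroup.closure_le]
    intro x hx
    rw [SetLike.mem_coe, Subgroup.mem_centralizer_iff]
    rintro y (rfl | rfl)
    · exact (hE'c _ hcE' x hx).eq
    · exact (hE'c _ hdE' x hx).eq
  obtain ⟨T₁, T₂, x, hxX, hT₁, hT₂, hA, hB, hconj⟩ := exists_sylow_conj_in X _ _
    (isPGroup_closure_of_commute (fun x hx => tt_mul_self hT (hE hx)) (fun x hx y hy => hc x hx y hy))
    (isPGroup_closure_of_commute (fun x hx => tt_mul_self hT (hE'D hx))
      (fun x hx y hy => hE'c x hx y hy)) hAX hBX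
  have e1 := max_commuting_eq hT hmax hE hT₁ (fun y hy => hA (Subgroup.subset_closure hy))
  have e2 := max_commuting_eq hT hmax' hE'D hT₂ (fun y hy => hB (Subgroup.subset_closure hy))
  have hxc : x ⋆ c = c := by
    rw [cj_eq_self_iff]
    exact ((Subgroup.mem_centralizer_iff.1 hxX) c (by simp)).symm
  have hxd : x ⋆ d = d := by
    rw [cj_eq_self_iff]
    exact ((Subgroup.mem_centralizer_iff.1 hxX) d (by simp)).symm
  -- `x ⋆ E = E'`
  have key : ∀ n, n ∈ E ↔ x ⋆ n ∈ E' := by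
    intro n
    rw [e1, e2]
    constructor
    · rintro ⟨h1, h2⟩
      exact ⟨ttc_conj_mem hD x h1, (hconj n).1 h2⟩
    · rintro ⟨h1, h2⟩
      refine ⟨?_, (hconj n).2 h2⟩
      have := ttc_conj_mem hD x⁻¹ h1
      rwa [cj_inv_cj] at this
  refine ⟨x⁻¹ * g, ?_, ?_, ?_⟩
  · rw [Subgroup.mem_set_normalizer_iff]
    intro n
    rw [cj_mul, key (x⁻¹ ⋆ (g ⋆ n)), cj_cj_inv]
    constructor
    · intro hn
      exact ⟨n, hn, rfl⟩
    · rintro ⟨m, hm, hmn⟩
      have := cj_injective g hmn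
      rwa [← this]
  · rw [cj_mul, hg1]
    nth_rewrite 1 [← hxc]
    exact cj_inv_cj x c
  · rw [cj_mul, hg2]
    nth_rewrite 1 [← hxd]
    exact cj_inv_cj x d

end Cfsg.Agent.Lib.Helper8
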