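import Mathlib
import Cfsg.Prelude.Def_Local
import Cfsg.Agent.Lib.Helper8.Fischer2
import Cfsg.Agent.Lib.Helper31.Components
import Cfsg.Agent.Lib.Helper31.GenFitting
import Cfsg.Agent.S0144
import Cfsg.Agent.S0009
import Cfsg.Agent.S5347

/-!
# Components of groups generated by a class of 3-transpositions
-/

set_option autoImplicit false

namespace Cfsg.Agent.Lib.Helper8

open Cfsg.Agent.Lib.Helper89 Cfsg.Agent.Lib.Helper31
open scoped commutatorElement

variable {G : Type*} [Group G] {D : Set G}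

local notation:75 g:76 " ⋆ " x:75 => g * x * g⁻¹

theorem conj_mem_of_mem_closure {S A : Set G} (hinv : ∀ g ∈ S, g⁻¹ = g)
    (hA : ∀ g ∈ S, ∀ x ∈ A, g * x * g⁻¹ ∈ A) {g : G} (hg : g ∈ Subgroup.closure S) :
    ∀ x ∈ A, g * x * g⁻¹ ∈ A := by
  have key : (∀ x ∈ A, g * x * g⁻¹ ∈ A) ∧ (∀ x ∈ A, g⁻¹ * x * g ∈ A) := by
    induction hg using Subgroup.closure_induction with
    | mem g hg =>
      refine ⟨hA g hg, fun x hx => ?_⟩
      have := hA g hg x hx
      rw [hinv g hg] at this ⊢
      exact this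
    | one => simp
    | mul g₁ g₂ _ _ h₁ h₂ =>
      refine ⟨fun x hx => ?_, fun x hx => ?_⟩
      · have := h₁.1 _ (h₂.1 x hx)
        convert this using 1; group
      · have := h₂.2 _ (h₁.2 x hx)
        convert this using 1; group
    | inv g _ h =>
      refine ⟨fun x hx => ?_, fun x hx => ?_⟩
      · have := h.2 x hx
        rwa [inv_inv]
      · have := h.1 x hx
        rwa [inv_inv]
  exact key.1

/-- The width-one theorem for a set `B` of involutions closed under conjugation by itself. -/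
theorem widthOne_subset [Finite G] (B : Set G) (hinv : ∀ d ∈ B, d * d = 1)
    (hconj : ∀ d ∈ B, ∀ e ∈ B, d * e * d⁻¹ ∈ B) (h3 : ∀ d ∈ B, ∀ e ∈ B, (d * e) ^ 3 = 1) :
    IsPGroup 3 (Subgroup.closure {x : G | ∃ d ∈ B, ∃ e ∈ B, x = d * e}) := by
  set H := Subgroup.closure B with hH
  have hW : W3 {x : H | (x : G) ∈ B} :=
    { inv := fun d hd => Subtype.ext (hinv d hd)
      conj := fun d hd g => conj_mem_of_mem_closure
        (fun x hx => inv_eq_iff_mul_eq_one.2 (hinv x hx)) hconj g.2 d hd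
      gen := Subgroup.closure_closure_coe_preimage
      cube := fun d hd e he => Subtype.ext (h3 d hd e he) }
  obtain ⟨N, hN, hND⟩ := w3_good_aux _ H _ rfl hW
  refine (hN.map H.subtype).to_le ?_
  rw [Subgroup.closure_le]
  rintro _ ⟨d, hd, e, he, rfl⟩
  exact ⟨⟨d, Subgroup.subset_closure hd⟩ * ⟨e, Subgroup.subset_closure he⟩, hND _ hd _ he, rfl⟩

theorem le_normalizer_of_conj_mem {L M : Subgroup G} (h : ∀ x ∈ L, ∀ m ∈ M, x ⋆ m ∈ M) :
    L ≤ Subgroup.normalizer (M : Set G) := by
  intro x hx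
  rw [Subgroup.mem_normalizer_iff]
  intro m
  refine ⟨h x hx m, fun hm => ?_⟩
  have := h x⁻¹ (inv_mem hx) _ hm
  rwa [cj_inv_cj] at this

theorem isSolvable_of_isPGroup [Finite G] {p : ℕ} [Fact p.Prime] {M : Subgroup G}
    (h : IsPGroup p M) : Group.IsSolvable M := by
  have := h.isNilpotent
  infer_instance

theorem isSolvable_of_le {M N : Subgroup G} (h : M ≤ N) (hN : Group.IsSolvable N) :
    Group.IsSolvable M :=
  Group.isSolvable_of_isSolvable_injective (Subgroup.inclusion_injective h)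

theorem mem_zpowers_of_sq {d x : G} (hd : d * d = 1) (hx : x ∈ Subgroup.zpowers d) :
    x = 1 ∨ x = d := by
  obtain ⟨k, rfl⟩ := Subgroup.mem_zpowers_iff.1 hx
  rcases Int.even_or_odd' k with ⟨m, rfl | rfl⟩
  · left
    rw [zpow_mul, zpow_ofNat, pow_two, hd, one_zpow]
  · right
    rw [zpow_add, zpow_mul, zpow_ofNat, pow_two, hd, one_zpow, one_mul, zpow_one]

/-- The subgroup generated by the products of two `L`-conjugates of `d`. -/
def MLd (L : Subgroup G) (d : G) : Subgroup G :=
  Subgroup.closure {x : G | ∃ y ∈ L, ∃ z ∈ L, x = (y ⋆ d) * (z ⋆ d)}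

theorem le_normalizer_MLd (L : Subgroup G) (d : G) :
    L ≤ Subgroup.normalizer (MLd L d : Set G) := by
  apply le_normalizer_of_conj_mem
  intro x hx m hm
  unfold MLd at hm ⊢
  induction hm using Subgroup.closure_induction with
  | mem m hm =>
    obtain ⟨y, hy, z, hz, rfl⟩ := hm
    exact Subgroup.subset_closure ⟨x * y, mul_mem hx hy, x * z, mul_mem hx hz, by group⟩
  | one => simp
  | mul a b _ _ h₁ h₂ =>
    have : x ⋆ (a * b) = (x ⋆ a) * (x ⋆ b) := by group
    rw [this]; exact mul_mem h₁ h₂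
  | inv a _ h₁ =>
    have : x ⋆ a⁻¹ = (x ⋆ a)⁻¹ := by group
    rw [this]; exact inv_mem h₁

/-- A member of `D` does not centralize a normal component. -/
theorem not_centralize_component (hD : Cfsg.IsThreeTranspositionClass D) {L : Subgroup G}
    (hL : Cfsg.IsComponent L) (hLn : L.Normal) {d : G} (hd : d ∈ D) :
    ¬ (∀ l ∈ L, Commute d l) := by
  intro h
  apply IsComponent.not_le_centralizer hL
  have h1 : ∀ e ∈ D, ∀ l ∈ L, Commute e l := by
    intro e he l hl
    obtain ⟨g, rfl⟩ := ttc_isConj hD hd he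
    have h2 := h (g⁻¹ ⋆ l) (hLn.conj_mem l hl g⁻¹)
    have h3 := (Commute.conj_iff g).2 h2
    rwa [cj_cj_inv] at h3
  have h2 : Subgroup.closure D ≤ Subgroup.centralizer (L : Set G) := by
    rw [Subgroup.closure_le]
    intro e he
    rw [SetLike.mem_coe, Subgroup.mem_centralizer_iff]
    intro l hl
    exact (h1 e he l hl).eq.symm
  rw [hD.2.2] at h2
  exact le_top.trans h2

/-- **Key lemma**: for a normal component `L` the subgroup `MLd L d` is not solvable. -/
theorem MLd_not_isSolvable (hD : Cfsg.IsThreeTranspositionClass D) {L : Subgroup G}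
    (hL : Cfsg.IsComponent L) (hLn : L.Normal) {d : G} (hd : d ∈ D) :
    ¬ Group.IsSolvable (MLd L d) := by
  intro hsol
  have hT := hD.1
  have h1 : ⁅L, MLd L d⁆ = ⊥ :=
    IsComponent.commutator_eq_bot_of_isSolvable hL hsol (le_normalizer_MLd L d)
  have h2 : MLd L d ≤ Subgroup.centralizer (L : Set G) := by
    rw [← Subgroup.commutator_eq_bot_iff_le_centralizer, Subgroup.commutator_comm]; exact h1
  have h3 : ⁅⁅Subgroup.zpowers d, L⁆, L⁆ = ⊥ := by
    rw [Subgroup.commutator_eq_bot_iff_le_centralizer, Subgroup.commutator_le]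
    intro a ha l hl
    rcases mem_zpowers_of_sq (tt_mul_self hT hd) ha with rfl | rfl
    · rw [commutatorElement_one_left]; exact one_mem _
    · apply h2
      apply Subgroup.subset_closure
      refine ⟨1, one_mem _, l, hl, ?_⟩
      rw [commutatorElement_def, tt_inv hT hd]; group
  have h4 := commutator_eq_bot_of_perfect (IsComponent.perfect hL) h3
  rw [Subgroup.commutator_eq_bot_iff_le_centralizer] at h4
  apply not_centralize_component hD hL hLn hd
  intro l hl
  have := h4 (Subgroup.mem_zpowers d)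
  rw [Subgroup.mem_centralizer_iff] at this
  exact (this l hl).symm

/-- For a normal component `L` some `L`-conjugate of `d` does not commute with `d`. -/
theorem exists_conj_not_commute [Finite G] (hD : Cfsg.IsThreeTranspositionClass D)
    {L : Subgroup G} (hL : Cfsg.IsComponent L) (hLn : L.Normal) {d : G} (hd : d ∈ D) :
    ∃ y ∈ L, ¬ Commute (y ⋆ d) d := by
  by_contra hcon
  push Not at hcon
  have hT := hD.1
  have : Fact (Nat.Prime 2) := ⟨Nat.prime_two⟩
  apply MLd_not_isSolvable hD hL hLn hd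
  have hB : IsPGroup 2 (Subgroup.closure {x : G | ∃ y ∈ L, x = y ⋆ d}) := by
    apply isPGroup_closure_of_commute
    · rintro _ ⟨y, -, rfl⟩
      exact tt_mul_self hT (ttc_conj_mem hD y hd)
    · rintro _ ⟨y, hy, rfl⟩ _ ⟨z, hz, rfl⟩
      have h1 := hcon (z⁻¹ * y) (mul_mem (inv_mem hz) hy)
      have h2 := (Commute.conj_iff z).2 h1
      rw [← cj_mul] at h2
      have e : z * (z⁻¹ * y) = y := by group
      rw [e] at h2
      exact h2.eq
  refine isSolvable_of_le ?_ (isSolvable_of_isPGroup hB)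
  unfold MLd
  rw [Subgroup.closure_le]
  rintro _ ⟨y, hy, z, hz, rfl⟩
  exact mul_mem (Subgroup.subset_closure ⟨y, hy, rfl⟩) (Subgroup.subset_closure ⟨z, hz, rfl⟩)

/-- For a normal component `L` some `L`-conjugate of `d` other than `d` commutes with `d`. -/
theorem exists_conj_commute [Finite G] (hD : Cfsg.IsThreeTranspositionClass D)
    {L : Subgroup G} (hL : Cfsg.IsComponent L) (hLn : L.Normal) {d : G} (hd : d ∈ D) :
    ∃ x ∈ L, x ⋆ d ≠ d ∧ Commute (x ⋆ d) d := by
  by_contra hcon
  push Not at hcon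
  have hT := hD.1
  have : Fact (Nat.Prime 3) := ⟨Nat.prime_three⟩
  apply MLd_not_isSolvable hD hL hLn hd
  have hB := widthOne_subset {x : G | ∃ y ∈ L, x = y ⋆ d}
    (by
      rintro _ ⟨y, -, rfl⟩
      exact tt_mul_self hT (ttc_conj_mem hD y hd))
    (by
      rintro _ ⟨y, hy, rfl⟩ _ ⟨z, hz, rfl⟩
      refine ⟨y * (d ⋆ (y⁻¹ * z)), mul_mem hy (hLn.conj_mem _ (mul_mem (inv_mem hy) hz) d), ?_⟩
      group)
    (by
      rintro _ ⟨y, hy, rfl⟩ _ ⟨z, hz, rfl⟩
      rcases hT.2 _ (ttc_conj_mem hD y hd) _ (ttc_conj_mem hD z hd) with h2 | h2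
      · have hc := commute_of_sq (tt_mul_self hT (ttc_conj_mem hD y hd))
          (tt_mul_self hT (ttc_conj_mem hD z hd)) h2
        have h1 : Commute ((z⁻¹ * y) ⋆ d) d := by
          have h3 := (Commute.conj_iff z⁻¹).2 hc
          rwa [← cj_mul, cj_inv_cj] at h3
        have h4 : (z⁻¹ * y) ⋆ d = d := by
          by_contra hne
          exact hcon _ (mul_mem (inv_mem hz) hy) hne h1
        have h5 : y ⋆ d = z ⋆ d := by
          have := congrArg (fun t => z ⋆ t) h4
          simp only [← cj_mul] at this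
          have e : z * (z⁻¹ * y) = y := by group
          rwa [e] at this
        rw [h5, tt_mul_self hT (ttc_conj_mem hD z hd), one_pow]
      · exact h2)
  refine isSolvable_of_le ?_ (isSolvable_of_isPGroup hB)
  unfold MLd
  apply Subgroup.closure_mono
  rintro _ ⟨y, hy, z, hz, rfl⟩
  exact ⟨_, ⟨y, hy, rfl⟩, _, ⟨z, hz, rfl⟩, rfl⟩

/-- Two different normal components cannot coexist. -/
theorem normal_component_unique [Finite G] (hD : Cfsg.IsThreeTranspositionClass D)
    {L₁ L₂ : Subgroup G} (h₁ : Cfsg.IsComponent L₁) (h₂ : Cfsg.IsComponent L₂) (hn₁ : L₁.Normal)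
    (hn₂ : L₂.Normal) : L₁ = L₂ := by
  by_contra hne
  have hT := hD.1
  obtain ⟨d, hd, -⟩ := hD.2.1
  have hcomm : ⁅L₁, L₂⁆ = ⊥ := IsComponent.commutator_eq_bot_of_ne h₁ h₂ hne
  rw [Subgroup.commutator_eq_bot_iff_le_centralizer] at hcomm
  have hc : ∀ a ∈ L₁, ∀ b ∈ L₂, Commute a b := by
    intro a ha b hb
    exact ((Subgroup.mem_centralizer_iff.1 (hcomm ha)) b hb).symm
  obtain ⟨x, hx, hx1, hx2⟩ := exists_conj_commute hD h₁ hn₁ hd
  obtain ⟨y, hy, hy1⟩ := exists_conj_not_commute hD h₂ hn₂ hd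
  have hd2 := tt_mul_self hT hd
  have hdi := tt_inv hT hd
  set u := (x ⋆ d) * d with hu
  set v := (y ⋆ d) * d with hv
  have huL : u ∈ L₁ := by
    have : u = x * (d ⋆ x⁻¹) := by rw [hu, hdi]; group
    rw [this]; exact mul_mem hx (hn₁.conj_mem _ (inv_mem hx) d)
  have hvL : v ∈ L₂ := by
    have : v = y * (d ⋆ y⁻¹) := by rw [hv, hdi]; group
    rw [this]; exact mul_mem hy (hn₂.conj_mem _ (inv_mem hy) d)
  have huv : Commute u v := hc u huL v hvL
  have hu2 : u ^ 2 = 1 := by
    rw [pow_two, hu]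
    calc (x ⋆ d) * d * ((x ⋆ d) * d) = (x ⋆ d) * (d * (x ⋆ d)) * d := by group
      _ = (x ⋆ d) * ((x ⋆ d) * d) * d := by rw [hx2.eq]
      _ = ((x ⋆ d) * (x ⋆ d)) * (d * d) := by group
      _ = 1 := by rw [tt_mul_self hT (ttc_conj_mem hD x hd), hd2, one_mul]
  have hu1 : u ≠ 1 := by
    intro h
    apply hx1
    have h' := eq_inv_of_mul_eq_one_left h
    rwa [hdi] at h'
  have hv3 : v ^ 3 = 1 := by
    rcases hT.2 _ (ttc_conj_mem hD y hd) _ hd with h | h
    · exact absurd (commute_of_sq (tt_mul_self hT (ttc_conj_mem hD y hd)) hd2 h) hy1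
    · exact h
  have hv1 : v ^ 2 ≠ 1 := by
    intro h
    exact hy1 (commute_of_sq (tt_mul_self hT (ttc_conj_mem hD y hd)) hd2 h)
  -- the conjugate of `d` by `x * y`
  have hxy : ((x * y) ⋆ d) * d = v * u := by
    have e1 : y ⋆ d = v * d := by rw [hv, mul_assoc (y ⋆ d), hd2, mul_one]
    have e2 : x ⋆ v = v := cj_eq_self_iff.2 (hc x hx v hvL)
    calc ((x * y) ⋆ d) * d = (x ⋆ (y ⋆ d)) * d := by rw [cj_mul]
      _ = (x ⋆ (v * d)) * d := by rw [e1]
      _ = (x ⋆ v) * ((x ⋆ d) * d) := by group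
      _ = v * u := by rw [e2]
  rcases hT.2 _ (ttc_conj_mem hD (x * y) hd) _ hd with h | h
  · rw [hxy, huv.symm.mul_pow, hu2, mul_one] at h
    exact hv1 h
  · rw [hxy, huv.symm.mul_pow, hv3, one_mul, pow_succ, hu2, one_mul] at h
    exact hu1 h

theorem eq_two_pow_mul_three_pow {n : ℕ} (hn : n ≠ 0)
    (h : ∀ p : ℕ, p.Prime → p ∣ n → p = 2 ∨ p = 3) : ∃ a b : ℕ, n = 2 ^ a * 3 ^ b := by
  obtain ⟨a, n', h2, rfl⟩ := Nat.exists_eq_pow_mul_and_not_dvd hn 2 (by norm_num)
  have hn' : n' ≠ 0 := by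
    rintro rfl
    simp at hn
  obtain ⟨b, n'', h3, rfl⟩ := Nat.exists_eq_pow_mul_and_not_dvd hn' 3 (by norm_num)
  have h1 : n'' = 1 := by
    rw [Nat.eq_one_iff_not_exists_prime_dvd]
    intro p hp hpn
    rcases h p hp (Dvd.dvd.mul_left (Dvd.dvd.mul_left hpn _) _) with rfl | rfl
    · exact h2 (Dvd.dvd.mul_left hpn _)
    · exact h3 hpn
  exact ⟨a, b, by rw [h1, mul_one]⟩

/-- A finite group of exponent dividing 6 is solvable (via Burnside's theorem). -/
theorem isSolvable_of_pow_six {Q : Type*} [Group Q] [Finite Q] (h : ∀ q : Q, q ^ 6 = 1) :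
    Group.IsSolvable Q := by
  obtain ⟨a, b, hab⟩ := eq_two_pow_mul_three_pow (n := Nat.card Q) Nat.card_pos.ne' (by
    intro p hp hdvd
    have : Fact p.Prime := ⟨hp⟩
    obtain ⟨x, hx⟩ := exists_prime_orderOf_dvd_card' p hdvd
    have h6 : p ∣ 2 * 3 := by
      rw [← hx]; exact orderOf_dvd_of_pow_eq_one (h x)
    rcases (Nat.Prime.dvd_mul hp).1 h6 with h2 | h3
    · exact Or.inl ((Nat.prime_dvd_prime_iff_eq hp Nat.prime_two).1 h2)
    · exact Or.inr ((Nat.prime_dvd_prime_iff_eq hp Nat.prime_three).1 h3))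
  exact Cfsg.Agent.S0144.result 2 3 a b Nat.prime_two Nat.prime_three hab

/-- Every component of a group generated by a class of 3-transpositions is normal. -/
theorem component_normal [Finite G] (hD : Cfsg.IsThreeTranspositionClass D) {L : Subgroup G}
    (hL : Cfsg.IsComponent L) : L.Normal := by
  have hT := hD.1
  have key : ∀ d ∈ D, L.map (MulAut.conj d).toMonoidHom = L := by
    intro d hd
    by_contra hne
    have hL' : Cfsg.IsComponent (L.map (MulAut.conj d).toMonoidHom) :=
      IsComponent.map_equiv hL (MulAut.conj d)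
    have hcomm := IsComponent.commutator_eq_bot_of_ne hL' hL hne
    rw [Subgroup.commutator_eq_bot_iff_le_centralizer] at hcomm
    have hdi := tt_inv hT hd
    have hmem : ∀ l ∈ L, d ⋆ l ∈ L.map (MulAut.conj d).toMonoidHom := fun l hl => ⟨l, hl, rfl⟩
    have h6 : ∀ l ∈ L, l ^ 6 ∈ Subgroup.centralizer (L : Set G) := by
      intro l hl
      have hx : (l ⋆ d) * d = l * (d ⋆ l⁻¹) := by rw [hdi]; group
      have hl' := hmem l⁻¹ (inv_mem hl)
      have hc : Commute l (d ⋆ l⁻¹) :=
        (Subgroup.mem_centralizer_iff.1 (hcomm hl')) l hl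
      have hk : ∀ k : ℕ, ((l ⋆ d) * d) ^ k = 1 → l ^ k ∈ Subgroup.centralizer (L : Set G) := by
        intro k hk
        rw [hx, hc.mul_pow] at hk
        rw [eq_inv_of_mul_eq_one_left hk]
        exact inv_mem (pow_mem (hcomm hl') k)
      rcases hT.2 _ (ttc_conj_mem hD l hd) _ hd with h | h
      · have := pow_mem (hk 2 h) 3
        rwa [← pow_mul] at this
      · have := pow_mem (hk 3 h) 2
        rwa [← pow_mul] at this
    apply IsComponent.not_isSolvable hL
    have hQ : Group.IsSolvable (L ⧸ Subgroup.center L) := by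
      apply isSolvable_of_pow_six
      intro q
      obtain ⟨⟨l, hl⟩, rfl⟩ := QuotientGroup.mk_surjective q
      rw [← QuotientGroup.mk_pow, QuotientGroup.eq_one_iff, Subgroup.mem_center_iff]
      intro y
      apply Subtype.ext
      exact (Subgroup.mem_centralizer_iff.1 (h6 l hl)) y y.2
    have hZ : Group.IsSolvable (Subgroup.center L) :=
      Group.isSolvable_of_comm (fun a b => Subtype.ext ((Subgroup.mem_center_iff.1 b.2) a))
    exact Group.isSolvable_of_ker_le_range (Subgroup.center L).subtype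
      (QuotientGroup.mk' (Subgroup.center L)) (by
        rw [QuotientGroup.ker_mk', Subgroup.range_subtype])
  have hle : Subgroup.closure D ≤ Subgroup.normalizer (L : Set G) := by
    rw [Subgroup.closure_le]
    intro d hd
    rw [SetLike.mem_coe, Subgroup.mem_normalizer_iff_map_conj_eq]
    exact key d hd
  rw [hD.2.2, top_le_iff] at hle
  exact Subgroup.normalizer_eq_top_iff.1 hle

theorem mem_center_of_commute (hD : Cfsg.IsThreeTranspositionClass D) {x : G}
    (h : ∀ d ∈ D, Commute d x) : x ∈ Subgroup.center G := by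
  have hle : Subgroup.closure D ≤ Subgroup.centralizer {x} := by
    rw [Subgroup.closure_le]
    intro d hd
    rw [SetLike.mem_coe, Subgroup.mem_centralizer_singleton_iff]
    exact (h d hd).eq
  rw [Subgroup.mem_center_iff]
  intro g
  have hg : g ∈ Subgroup.centralizer {x} := hle (hD.2.2 ▸ Subgroup.mem_top g)
  rw [Subgroup.mem_centralizer_singleton_iff] at hg
  exact hg

theorem ttc_group (hD : Cfsg.IsThreeTranspositionClass D) : Cfsg.IsThreeTranspositionGroup D :=
  ⟨hD.1, fun g _ hd => ttc_conj_mem hD g hd, hD.2.2⟩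

theorem pCore_le_center_of_gt [Finite G] (hD : Cfsg.IsThreeTranspositionClass D) {p : ℕ}
    (hp : p.Prime) (hp3 : 3 < p) : Cfsg.pCore p G ≤ Subgroup.center G := by
  intro x hx
  apply mem_center_of_commute hD
  intro d hd
  have hn : (Cfsg.pCore p G).Normal := Cfsg.Agent.Lib.Lead.pCore_normal' p G
  exact Cfsg.Agent.S5347.result (ttc_group hD) hp hp3 (Cfsg.pCore p G)
    (Cfsg.Agent.Lib.Lead.pCore_isPGroup p G) hd
    (by rw [Subgroup.normalizer_eq_top]; trivial) x hx

theorem fitting_le_center [Finite G] (hD : Cfsg.IsThreeTranspositionClass D)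
    (h2 : Cfsg.pCore 2 G ≤ Subgroup.center G) (h3 : Cfsg.pCore 3 G ≤ Subgroup.center G) :
    Cfsg.fittingSubgroup G ≤ Subgroup.center G := by
  rw [Cfsg.Agent.S0009.result]
  apply iSup_le
  intro p
  have hp := p.2
  by_cases hp2 : (p : ℕ) = 2
  · rw [hp2]; exact h2
  by_cases hp3 : (p : ℕ) = 3
  · rw [hp3]; exact h3
  have h4 : (p : ℕ) ≠ 4 := by
    intro h
    rw [h] at hp
    exact absurd hp (by decide)
  have := hp.two_le
  exact pCore_le_center_of_gt hD hp (by omega)

theorem exists_component [Finite G] (hD : Cfsg.IsThreeTranspositionClass D)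
    (hD2 : ∃ a ∈ D, ∃ b ∈ D, a ≠ b)
    (h2 : Cfsg.pCore 2 G ≤ Subgroup.center G) (h3 : Cfsg.pCore 3 G ≤ Subgroup.center G) :
    ∃ L : Subgroup G, Cfsg.IsComponent L := by
  by_contra hcon
  push Not at hcon
  have hlayer : Cfsg.layer G = ⊥ := by
    unfold Cfsg.layer
    rw [sSup_eq_bot]
    intro K hK
    exact absurd hK (hcon K)
  have hF : Cfsg.generalizedFittingSubgroup G ≤ Subgroup.center G := by
    unfold Cfsg.generalizedFittingSubgroup
    rw [hlayer, bot_sup_eq]
    exact fitting_le_center hD h2 h3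
  have hC : Subgroup.centralizer (Cfsg.generalizedFittingSubgroup G : Set G) = ⊤ := by
    rw [eq_top_iff]
    intro g _
    rw [Subgroup.mem_centralizer_iff]
    intro x hx
    exact ((Subgroup.mem_center_iff.1 (hF hx)) g).symm
  have htop : (⊤ : Subgroup G) ≤ Subgroup.center G := by
    rw [← hC]
    exact centralizer_genFitting_le.trans hF
  obtain ⟨a, ha, -⟩ := id hD2
  obtain ⟨c, hc, hac⟩ := exists_not_commute hD hD2 ha
  exact hac ((Subgroup.mem_center_iff.1 (htop (Subgroup.mem_top c))) a)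

theorem MLd_le (L : Subgroup G) (hLn : L.Normal) (hD : Cfsg.IsThreeTranspositionSet D) {d : G}
    (hd : d ∈ D) : MLd L d ≤ L := by
  unfold MLd
  rw [Subgroup.closure_le]
  rintro _ ⟨y, hy, z, hz, rfl⟩
  have hd2 := tt_mul_self hD hd
  have e : (y ⋆ d) * (z ⋆ d) = (y * (d ⋆ y⁻¹)) * ((d ⋆ z) * z⁻¹) := by
    calc (y ⋆ d) * (z ⋆ d) = y * d * y⁻¹ * 1 * z * d * z⁻¹ := by group
      _ = y * d * y⁻¹ * (d * d) * z * d * z⁻¹ := by rw [hd2]
      _ = (y * (d * y⁻¹ * d)) * ((d * z * d) * z⁻¹) := by group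
      _ = (y * (d ⋆ y⁻¹)) * ((d ⋆ z) * z⁻¹) := by rw [tt_inv hD hd]
  rw [e]
  exact mul_mem (mul_mem hy (hLn.conj_mem _ (inv_mem hy) d))
    (mul_mem (hLn.conj_mem _ hz d) (inv_mem hz))

theorem MLd_eq (hD : Cfsg.IsThreeTranspositionClass D) {L : Subgroup G}
    (hL : Cfsg.IsComponent L) (hLn : L.Normal) {d : G} (hd : d ∈ D) : MLd L d = L := by
  rcases IsComponent.eq_or_le_centralizer hL (MLd_le L hLn hD.1 hd) (le_normalizer_MLd L d) with
    h | h
  · exact h
  · exfalso
    apply MLd_not_isSolvable hD hL hLn hd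
    apply Group.isSolvable_of_comm
    intro a b
    apply Subtype.ext
    exact ((Subgroup.mem_centralizer_iff.1 (h a.2)) b (MLd_le L hLn hD.1 hd b.2)).symm

/-- In the quotient by a normal component the image of `D` has width one. -/
theorem width_one_mod_component [Finite G] (hD : Cfsg.IsThreeTranspositionClass D)
    {L : Subgroup G} (hL : Cfsg.IsComponent L) (hLn : L.Normal) :
    ∀ a ∈ D, ∀ b ∈ D, a * b * a⁻¹ * b⁻¹ ∈ L → a⁻¹ * b ∈ L := by
  have hT := hD.1
  intro a ha b hb hab
  have ha2 := tt_mul_self hT ha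
  have hb2 := tt_mul_self hT hb
  rw [tt_inv hT ha] at hab ⊢
  rw [tt_inv hT hb] at hab
  by_cases hc : Commute a b
  · by_contra hnot
    apply not_centralize_component hD hL hLn hb
    have hsq : (b * a) ^ 2 = 1 := by
      rw [pow_two]
      calc b * a * (b * a) = b * (a * b) * a := by group
        _ = b * (b * a) * a := by rw [hc.eq]
        _ = (b * b) * (a * a) := by group
        _ = 1 := by rw [ha2, hb2, one_mul]
    have h1 : ∀ l ∈ L, Commute b (l ⋆ a) := by
      intro l hl
      by_contra hnc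
      apply hnot
      have h3 : (b * (l ⋆ a)) ^ 3 = 1 := by
        rcases hT.2 b hb _ (ttc_conj_mem hD l ha) with h | h
        · exact absurd (commute_of_sq hb2 (tt_mul_self hT (ttc_conj_mem hD l ha)) h) hnc
        · exact h
      have hn : a * (l ⋆ a) ∈ L := by
        have : a * (l ⋆ a) = (a ⋆ l) * l⁻¹ := by rw [tt_inv hT ha]; group
        rw [this]
        exact mul_mem (hLn.conj_mem l hl a) (inv_mem hl)
      have e1 : b * (l ⋆ a) = (b * a) * (a * (l ⋆ a)) := by
        calc b * (l ⋆ a) = b * 1 * (l ⋆ a) := by group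
          _ = b * (a * a) * (l ⋆ a) := by rw [ha2]
          _ = (b * a) * (a * (l ⋆ a)) := by group
      have f1 : (QuotientGroup.mk' L) (b * (l ⋆ a)) = (QuotientGroup.mk' L) (b * a) := by
        rw [e1, map_mul]
        have : (QuotientGroup.mk' L) (a * (l ⋆ a)) = 1 := by
          rw [QuotientGroup.mk'_apply, QuotientGroup.eq_one_iff]; exact hn
        rw [this, mul_one]
      have f3 : ((QuotientGroup.mk' L) (b * a)) ^ 3 = 1 := by
        rw [← f1, ← map_pow, h3, map_one]
      have f2 : ((QuotientGroup.mk' L) (b * a)) ^ 2 = 1 := by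
        rw [← map_pow, hsq, map_one]
      have f0 : (QuotientGroup.mk' L) (b * a) = 1 := by
        rw [pow_succ, f2, one_mul] at f3
        exact f3
      rw [QuotientGroup.mk'_apply, QuotientGroup.eq_one_iff] at f0
      rw [hc.eq]; exact f0
    have h2 : MLd L a ≤ Subgroup.centralizer {b} := by
      unfold MLd
      rw [Subgroup.closure_le]
      rintro _ ⟨y, hy, z, hz, rfl⟩
      rw [SetLike.mem_coe, Subgroup.mem_centralizer_singleton_iff]
      exact ((h1 y hy).mul_right (h1 z hz)).eq.symm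
    rw [MLd_eq hD hL hLn ha] at h2
    intro l hl
    have := h2 hl
    rw [Subgroup.mem_centralizer_singleton_iff] at this
    exact this.symm
  · have h3 : (a * b) ^ 3 = 1 := by
      rcases hT.2 a ha b hb with h | h
      · exact absurd (commute_of_sq ha2 hb2 h) hc
      · exact h
    have e : a * b = (a * b * a * b)⁻¹ := by
      rw [eq_inv_iff_mul_eq_one, ← h3]
      simp only [pow_succ, pow_zero, one_mul, mul_assoc]
    rw [e]
    exact inv_mem hab

/-- **Structure theorem** (Aschbacher, 3-transposition groups 9.2). -/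
theorem component_structure [Finite G] (hD : Cfsg.IsThreeTranspositionClass D)
    (hD2 : ∃ a ∈ D, ∃ b ∈ D, a ≠ b)
    (h2 : Cfsg.pCore 2 G ≤ Subgroup.center G) (h3 : Cfsg.pCore 3 G ≤ Subgroup.center G) :
    ∃ L : Subgroup G, L.Normal ∧ Cfsg.IsComponent L ∧
      Cfsg.generalizedFittingSubgroup G = L ⊔ Subgroup.center G ∧
      (∀ a ∈ D, ∀ b ∈ D, a * b * a⁻¹ * b⁻¹ ∈ L → a⁻¹ * b ∈ L) := by
  obtain ⟨L, hL⟩ := exists_component hD hD2 h2 h3
  have hLn := component_normal hD hL
  refine ⟨L, hLn, hL, ?_, width_one_mod_component hD hL hLn⟩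
  have hlayer : Cfsg.layer G = L := by
    unfold Cfsg.layer
    apply le_antisymm
    · apply sSup_le
      intro K hK
      rw [normal_component_unique hD hK hL (component_normal hD hK) hLn]
    · exact le_sSup hL
  have hF : Cfsg.fittingSubgroup G = Subgroup.center G := by
    apply le_antisymm (fitting_le_center hD h2 h3)
    unfold Cfsg.fittingSubgroup
    apply le_sSup
    exact ⟨inferInstance, ⟨⟨1, Subgroup.upperCentralSeries_one_eq_top_iff.2 inferInstance⟩⟩⟩
  unfold Cfsg.generalizedFittingSubgroup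
  rw [hlayer, hF]

end Cfsg.Agent.Lib.Helper8
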