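import Mathlib
import Cfsg.Agent.Lib.Helper8.Fischer3

/-!
# `W`-classes and the 3-core
-/

set_option autoImplicit false

namespace Cfsg.Agent.Lib.Helper8

open Cfsg.Agent.Lib.Helper89
open scoped Pointwise

variable {G : Type*} [Group G] {D : Set G}

local notation:75 g:76 " ⋆ " x:75 => g * x * g⁻¹

/-- The kernel of the action on the classes of an invariant equivalence relation. -/
def relKer (hD : Cfsg.IsThreeTranspositionClass D) {r : G → G → Prop} (hr : InvRel r) :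
    Subgroup G where
  carrier := {g | ∀ x ∈ D, r (g ⋆ x) x}
  one_mem' := by
    intro x _
    have : (1 : G) ⋆ x = x := by group
    rw [this]; exact hr.refl x
  mul_mem' := by
    intro g h hg hh x hx
    rw [cj_mul]
    exact hr.trans (hg _ (ttc_conj_mem hD h hx)) (hh x hx)
  inv_mem' := by
    intro g hg x hx
    have h1 := hg _ (ttc_conj_mem hD g⁻¹ hx)
    rw [cj_cj_inv] at h1
    exact hr.symm h1

theorem mem_relKer (hD : Cfsg.IsThreeTranspositionClass D) {r : G → G → Prop} (hr : InvRel r)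
    {g : G} : g ∈ relKer hD hr ↔ ∀ x ∈ D, r (g ⋆ x) x := Iff.rfl

theorem relKer_normal (hD : Cfsg.IsThreeTranspositionClass D) {r : G → G → Prop} (hr : InvRel r) :
    (relKer hD hr).Normal := by
  refine ⟨fun n hn g x hx => ?_⟩
  have h1 := hn _ (ttc_conj_mem hD g⁻¹ hx)
  have h2 := hr.conj g h1
  rw [cj_cj_inv] at h2
  have h3 : (g * n * g⁻¹) ⋆ x = g ⋆ (n ⋆ (g⁻¹ ⋆ x)) := by group
  rw [h3]; exact h2

/-- The subgroup generated by the products of two members of the `W`-class of `c`. -/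
def KW (D : Set G) (c : G) : Subgroup G :=
  Subgroup.closure {x : G | ∃ u ∈ {u | u ∈ D ∧ Dp D u = Dp D c},
    ∃ v ∈ {u | u ∈ D ∧ Dp D u = Dp D c}, x = u * v}

theorem KW_isPGroup [Finite G] (hD : Cfsg.IsThreeTranspositionClass D) (c : G) :
    IsPGroup 3 (KW D c) := by
  have hT := hD.1
  apply widthOne_subset
  · rintro u ⟨hu, -⟩
    exact tt_mul_self hT hu
  · rintro u ⟨hu, hu'⟩ v ⟨hv, hv'⟩
    refine ⟨ttc_conj_mem hD u hv, ?_⟩
    have h1 : Dp D (u ⋆ v) = Dp D (u ⋆ u) := (Dp_eqv hD).invRel.conj u (hv'.trans hu'.symm)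
    rw [h1, cj_eq_self_iff.2 (Commute.refl u), hu']
  · rintro u ⟨hu, hu'⟩ v ⟨hv, hv'⟩
    by_cases huv : u = v
    · rw [huv, tt_mul_self hT hv, one_pow]
    · have hnc := not_commute_of_Dp_eq hv huv (hu'.trans hv'.symm)
      rcases hT.2 u hu v hv with h | h
      · exact absurd (commute_of_sq (tt_mul_self hT hu) (tt_mul_self hT hv) h) hnc
      · exact h

theorem KW_le_relKer (hD : Cfsg.IsThreeTranspositionClass D) (c : G) :
    KW D c ≤ relKer hD (Dp_eqv hD).invRel := by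
  unfold KW
  rw [Subgroup.closure_le]
  rintro _ ⟨u, ⟨hu, hu'⟩, v, ⟨hv, hv'⟩, rfl⟩
  by_cases huv : u = v
  · rw [huv, tt_mul_self hD.1 hv]; exact one_mem _
  · exact wk_fix hD hu hv huv (hu'.trans hv'.symm)

theorem relKer_le_normalizer_KW (hD : Cfsg.IsThreeTranspositionClass D) (c : G) :
    relKer hD (Dp_eqv hD).invRel ≤ Subgroup.normalizer (KW D c : Set G) := by
  apply le_normalizer_of_conj_mem
  intro x hx m hm
  unfold KW at hm ⊢
  induction hm using Subgroup.closure_induction with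
  | mem m hm =>
    obtain ⟨u, ⟨hu, hu'⟩, v, ⟨hv, hv'⟩, rfl⟩ := hm
    exact Subgroup.subset_closure ⟨x ⋆ u, ⟨ttc_conj_mem hD x hu, (hx u hu).trans hu'⟩, x ⋆ v,
      ⟨ttc_conj_mem hD x hv, (hx v hv).trans hv'⟩, by group⟩
  | one => simp
  | mul a b _ _ h₁ h₂ =>
    have : x ⋆ (a * b) = (x ⋆ a) * (x ⋆ b) := by group
    rw [this]; exact mul_mem h₁ h₂
  | inv a _ h₁ =>
    have : x ⋆ a⁻¹ = (x ⋆ a)⁻¹ := by group
    rw [this]; exact inv_mem h₁

/-- If `D_a = D_w` then `a * w` lies in the 3-core. -/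
theorem mul_mem_pCore_three_of_Dp_eq [Finite G] (hD : Cfsg.IsThreeTranspositionClass D) {a w : G}
    (ha : a ∈ D) (hw : w ∈ D) (h : Dp D a = Dp D w) : a * w ∈ Cfsg.pCore 3 G := by
  have : Fact (Nat.Prime 3) := ⟨Nat.prime_three⟩
  have hBS : IsPGroup 3 (Subgroup.normalClosure ((Subgroup.zpowers (a * w) : Subgroup G) : Set G)) := by
    apply Cfsg.Agent.Lib.Helper96.baerSuzuki_normalClosure
    intro g
    have hsup : IsPGroup 3 (KW D a ⊔ KW D (g ⋆ a) : Subgroup G) :=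
      (KW_isPGroup hD a).to_sup_of_normal_right' (KW_isPGroup hD (g ⋆ a))
        ((KW_le_relKer hD a).trans (relKer_le_normalizer_KW hD (g ⋆ a)))
    refine hsup.to_le (sup_le_sup ?_ ?_)
    · rw [Subgroup.zpowers_le]
      exact Subgroup.subset_closure ⟨a, ⟨ha, rfl⟩, w, ⟨hw, h.symm⟩, rfl⟩
    · intro y hy
      obtain ⟨x, hx, rfl⟩ := Subgroup.mem_smul_pointwise_iff_exists _ _ _ |>.1 hy
      obtain ⟨k, rfl⟩ := Subgroup.mem_zpowers_iff.1 hx
      have h3 : (MulAut.conj g • (a * w) ^ k : G) = ((g ⋆ a) * (g ⋆ w)) ^ k := by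
        rw [MulAut.smul_def, MulAut.conj_apply, ← conj_zpow]
        congr 1
        group
      rw [h3]
      apply Subgroup.zpow_mem
      exact Subgroup.subset_closure ⟨g ⋆ a, ⟨ttc_conj_mem hD g ha, rfl⟩, g ⋆ w,
        ⟨ttc_conj_mem hD g hw, ((Dp_eqv hD).invRel.conj g h).symm⟩, rfl⟩
  exact Cfsg.Agent.Lib.Lead.le_pCore Subgroup.normalClosure_normal hBS
    (Subgroup.subset_normalClosure (Subgroup.mem_zpowers _))

/-- An element of square one in a 3-group is trivial. -/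
theorem eq_one_of_sq_of_mem_three {N : Subgroup G} (hN : IsPGroup 3 N) {x : G}
    (hx : x ∈ N) (h2 : x ^ 2 = 1) : x = 1 := by
  obtain ⟨k, hk⟩ := hN ⟨x, hx⟩
  have hk' : x ^ (3 ^ k) = 1 := by simpa using congrArg Subtype.val hk
  have hodd : Odd (3 ^ k) := Odd.pow (by decide)
  obtain ⟨m, hm⟩ := hodd
  rw [hm, pow_succ, pow_mul, h2, one_pow, one_mul] at hk'
  exact hk'

/-- Members of `D` congruent modulo a normal 3-subgroup have the same `D_x`. -/
theorem Dp_subset_of_coset (hD : Cfsg.IsThreeTranspositionSet D) {N : Subgroup G} [N.Normal]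
    (hN : IsPGroup 3 N) {x y : G} (hx : x ∈ D) (hy : y ∈ D) (hxy : x⁻¹ * y ∈ N) :
    Dp D x ⊆ Dp D y := by
  rintro e ⟨he, hne, hc⟩
  have hx2 := tt_mul_self hD hx
  have he2 := tt_mul_self hD he
  have hsq : (x * e) ^ 2 = 1 := by
    rw [pow_two]
    calc x * e * (x * e) = x * (e * x) * e := by group
      _ = x * (x * e) * e := by rw [hc.eq]
      _ = (x * x) * (e * e) := by group
      _ = 1 := by rw [hx2, he2, one_mul]
  have h1 : ((x : G) : G ⧸ N) = (y : G ⧸ N) := QuotientGroup.eq.mpr hxy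
  have hno3 : (y * e) ^ 3 ≠ 1 := by
    intro h3
    apply hne
    have f3 : ((x * e : G) : G ⧸ N) ^ 3 = 1 := by
      rw [QuotientGroup.mk_mul, h1, ← QuotientGroup.mk_mul, ← QuotientGroup.mk_pow, h3]
      rfl
    have f2 : ((x * e : G) : G ⧸ N) ^ 2 = 1 := by
      rw [← QuotientGroup.mk_pow, hsq]; rfl
    have f0 : ((x * e : G) : G ⧸ N) = 1 := by
      rw [pow_succ, f2, one_mul] at f3
      exact f3
    rw [QuotientGroup.eq_one_iff] at f0
    have h4 := eq_one_of_sq_of_mem_three hN f0 hsq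
    have h5 := eq_inv_of_mul_eq_one_right h4
    rw [tt_inv hD hx] at h5
    exact h5
  refine ⟨he, ?_, ?_⟩
  · rintro rfl
    apply hno3
    rw [he2, one_pow]
  · rcases hD.2 y hy e he with h | h
    · exact commute_of_sq (tt_mul_self hD hy) he2 h
    · exact absurd h hno3

theorem Dp_eq_of_coset (hD : Cfsg.IsThreeTranspositionSet D) {N : Subgroup G} [N.Normal]
    (hN : IsPGroup 3 N) {x y : G} (hx : x ∈ D) (hy : y ∈ D) (hxy : x⁻¹ * y ∈ N) :
    Dp D x = Dp D y := by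
  apply Set.Subset.antisymm (Dp_subset_of_coset hD hN hx hy hxy)
  apply Dp_subset_of_coset hD hN hy hx
  have : y⁻¹ * x = (x⁻¹ * y)⁻¹ := by group
  rw [this]; exact inv_mem hxy

end Cfsg.Agent.Lib.Helper8
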