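import Mathlib

/-!
# The Coxeter presentation of the symmetric group of degree 5

Four elements of a group satisfying the Coxeter relations of type `A₄` define a homomorphism from
`Equiv.Perm (Fin 5)`. (Same technique as `Cfsg.Agent.Lib.Helper89.sym4Hom`.)
-/

set_option autoImplicit false

namespace Cfsg.Agent.Lib.Helper8

/-- Names of the four Coxeter generators of the symmetric group of degree 5. -/
inductive Gen4 : Type
  | a | b | c | d
  deriving DecidableEq

namespace Gen4

/-- One pass of the rewriting system. -/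
def step : List Gen4 → List Gen4
  | a :: a :: l => l
  | b :: b :: l => l
  | c :: c :: l => l
  | d :: d :: l => l
  | c :: a :: l => a :: c :: l
  | d :: a :: l => a :: d :: l
  | d :: b :: l => b :: d :: l
  | b :: a :: b :: l => a :: b :: a :: l
  | c :: b :: c :: l => b :: c :: b :: l
  | d :: c :: d :: l => c :: d :: c :: l
  | c :: b :: a :: c :: l => b :: c :: b :: a :: l
  | d :: c :: b :: d :: l => c :: d :: c :: b :: l
  | d :: c :: b :: a :: d :: l => c :: d :: c :: b :: a :: l
  | x :: l => x :: step l
  | [] => []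

/-- the transposition attached to a generator -/
def tr : Gen4 → Equiv.Perm (Fin 5)
  | a => Equiv.swap 0 1
  | b => Equiv.swap 1 2
  | c => Equiv.swap 2 3
  | d => Equiv.swap 3 4

/-- the permutation attached to a word -/
def evP (l : List Gen4) : Equiv.Perm (Fin 5) := (l.map tr).prod

/-- the 120 normal forms -/
def words : List (List Gen4) :=
  ([[], [a]].flatMap fun x => [[], [b], [b, a]].flatMap fun y =>
    [[], [c], [c, b], [c, b, a]].flatMap fun z =>
      [[], [d], [d, c], [d, c, b], [d, c, b, a]].map fun u => x ++ y ++ z ++ u)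

/-- a word for a permutation -/
def word (σ : Equiv.Perm (Fin 5)) : List Gen4 :=
  (words.find? fun l => decide (evP l = σ)).getD []

set_option maxRecDepth 1000000 in
theorem evP_word : ∀ σ : Equiv.Perm (Fin 5), evP (word σ) = σ := by
  decide +kernel

set_option maxRecDepth 1000000 in
theorem step_word : ∀ (x : Gen4) (σ : Equiv.Perm (Fin 5)),
    step^[40] (word (tr x * σ)) = step^[40] (x :: word σ) := by
  intro x
  cases x <;> decide +kernel

section
variable {G : Type*} [Group G] (x y z w : G)

/-- the group element attached to a generator -/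
def gv : Gen4 → G
  | a => x
  | b => y
  | c => z
  | d => w

/-- the group element attached to a word -/
def ev (l : List Gen4) : G := (l.map (gv x y z w)).prod

@[simp] theorem ev_nil : ev x y z w [] = 1 := rfl
@[simp] theorem ev_cons (g : Gen4) (l : List Gen4) :
    ev x y z w (g :: l) = gv x y z w g * ev x y z w l := by simp [ev]

variable {x y z w}

theorem ev_step (hx : x * x = 1) (hy : y * y = 1) (hz : z * z = 1) (hw : w * w = 1)
    (hxz : z * x = x * z) (hxw : w * x = x * w) (hyw : w * y = y * w)
    (hxy : y * x * y = x * y * x) (hyz : z * y * z = y * z * y) (hzw : w * z * w = z * w * z)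
    (l : List Gen4) :
    ev x y z w (step l) = ev x y z w l := by
  induction l using step.induct with
  | case1 l => simp [step, gv, ← mul_assoc, hx]
  | case2 l => simp [step, gv, ← mul_assoc, hy]
  | case3 l => simp [step, gv, ← mul_assoc, hz]
  | case4 l => simp [step, gv, ← mul_assoc, hw]
  | case5 l => simp [step, gv, ← mul_assoc, hxz]
  | case6 l => simp [step, gv, ← mul_assoc, hxw]
  | case7 l => simp [step, gv, ← mul_assoc, hyw]
  | case8 l => simp [step, gv, ← mul_assoc, hxy]
  | case9 l => simp [step, gv, ← mul_assoc, hyz]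
  | case10 l => simp [step, gv, ← mul_assoc, hzw]
  | case11 l =>
    simp only [step, ev_cons, gv, ← mul_assoc]
    congr 1
    calc y * z * y * x = z * y * z * x := by rw [hyz]
      _ = z * y * (z * x) := by group
      _ = z * y * x * z := by rw [hxz]; group
  | case12 l =>
    simp only [step, ev_cons, gv, ← mul_assoc]
    congr 1
    calc z * w * z * y = w * z * w * y := by rw [hzw]
      _ = w * z * (w * y) := by group
      _ = w * z * y * w := by rw [hyw]; group
  | case13 l =>
    simp only [step, ev_cons, gv, ← mul_assoc]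
    congr 1
    calc z * w * z * y * x = w * z * w * y * x := by rw [hzw]
      _ = w * z * (w * y) * x := by group
      _ = w * z * y * (w * x) := by rw [hyw]; group
      _ = w * z * y * x * w := by rw [hxw]; group
  | case14 g l _ _ _ _ _ _ _ _ _ _ _ _ _ ih =>
    rw [step]
    · simp [ih]
    all_goals (intros; simp_all)
  | case15 => rfl

theorem ev_step_iter (hx : x * x = 1) (hy : y * y = 1) (hz : z * z = 1) (hw : w * w = 1)
    (hxz : z * x = x * z) (hxw : w * x = x * w) (hyw : w * y = y * w)
    (hxy : y * x * y = x * y * x) (hyz : z * y * z = y * z * y) (hzw : w * z * w = z * w * z)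
    (n : ℕ) (l : List Gen4) :
    ev x y z w (step^[n] l) = ev x y z w l := by
  induction n generalizing l with
  | zero => rfl
  | succ n ih => rw [Function.iterate_succ_apply, ih, ev_step hx hy hz hw hxz hxw hyw hxy hyz hzw]

theorem ev_word_mul (hx : x * x = 1) (hy : y * y = 1) (hz : z * z = 1) (hw : w * w = 1)
    (hxz : z * x = x * z) (hxw : w * x = x * w) (hyw : w * y = y * w)
    (hxy : y * x * y = x * y * x) (hyz : z * y * z = y * z * y) (hzw : w * z * w = z * w * z)
    (g : Gen4) (σ : Equiv.Perm (Fin 5)) :
    ev x y z w (word (tr g * σ)) = gv x y z w g * ev x y z w (word σ) := by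
  rw [← ev_cons, ← ev_step_iter hx hy hz hw hxz hxw hyw hxy hyz hzw 40 (word (tr g * σ)),
    step_word, ev_step_iter hx hy hz hw hxz hxw hyw hxy hyz hzw]

theorem ev_word_evP_mul (hx : x * x = 1) (hy : y * y = 1) (hz : z * z = 1) (hw : w * w = 1)
    (hxz : z * x = x * z) (hxw : w * x = x * w) (hyw : w * y = y * w)
    (hxy : y * x * y = x * y * x) (hyz : z * y * z = y * z * y) (hzw : w * z * w = z * w * z)
    (l : List Gen4) (σ : Equiv.Perm (Fin 5)) :
    ev x y z w (word (evP l * σ)) = ev x y z w l * ev x y z w (word σ) := by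
  induction l with
  | nil => simp [evP]
  | cons g l ih =>
    have : evP (g :: l) * σ = tr g * (evP l * σ) := by simp [evP, mul_assoc]
    rw [this, ev_word_mul hx hy hz hw hxz hxw hyw hxy hyz hzw, ih, ev_cons, mul_assoc]

end

end Gen4

open Gen4 in
/-- The homomorphism from the symmetric group of degree 5 given by four elements satisfying
the Coxeter relations of type `A₄`. -/
noncomputable def sym5Hom {G : Type*} [Group G] {x y z w : G}
    (hx : x * x = 1) (hy : y * y = 1) (hz : z * z = 1) (hw : w * w = 1)
    (hxz : z * x = x * z) (hxw : w * x = x * w) (hyw : w * y = y * w)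
    (hxy : y * x * y = x * y * x) (hyz : z * y * z = y * z * y) (hzw : w * z * w = z * w * z) :
    Equiv.Perm (Fin 5) →* G :=
  MonoidHom.mk' (fun σ => ev x y z w (word σ)) (by
    intro σ τ
    conv_lhs => rw [← evP_word σ]
    exact ev_word_evP_mul hx hy hz hw hxz hxw hyw hxy hyz hzw _ _)

section
open Gen4
variable {G : Type*} [Group G] {x y z w : G}
    (hx : x * x = 1) (hy : y * y = 1) (hz : z * z = 1) (hw : w * w = 1)
    (hxz : z * x = x * z) (hxw : w * x = x * w) (hyw : w * y = y * w)
    (hxy : y * x * y = x * y * x) (hyz : z * y * z = y * z * y) (hzw : w * z * w = z * w * z)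

theorem sym5Hom_tr (g : Gen4) :
    sym5Hom hx hy hz hw hxz hxw hyw hxy hyz hzw (tr g) = gv x y z w g := by
  have h := ev_word_mul hx hy hz hw hxz hxw hyw hxy hyz hzw g 1
  have h1 : ev x y z w (word 1) = 1 := by
    have : word 1 = [] := by decide +kernel
    rw [this]; rfl
  rw [h1, mul_one, mul_one] at h
  exact h

theorem sym5Hom_swap01 : sym5Hom hx hy hz hw hxz hxw hyw hxy hyz hzw (Equiv.swap 0 1) = x :=
  sym5Hom_tr hx hy hz hw hxz hxw hyw hxy hyz hzw Gen4.a

theorem sym5Hom_swap12 : sym5Hom hx hy hz hw hxz hxw hyw hxy hyz hzw (Equiv.swap 1 2) = y :=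
  sym5Hom_tr hx hy hz hw hxz hxw hyw hxy hyz hzw Gen4.b

theorem sym5Hom_swap23 : sym5Hom hx hy hz hw hxz hxw hyw hxy hyz hzw (Equiv.swap 2 3) = z :=
  sym5Hom_tr hx hy hz hw hxz hxw hyw hxy hyz hzw Gen4.c

theorem sym5Hom_swap34 : sym5Hom hx hy hz hw hxz hxw hyw hxy hyz hzw (Equiv.swap 3 4) = w :=
  sym5Hom_tr hx hy hz hw hxz hxw hyw hxy hyz hzw Gen4.d

theorem sym5Hom_injective (hne : x ≠ z) :
    Function.Injective (sym5Hom hx hy hz hw hxz hxw hyw hxy hyz hzw) := by
  rw [← MonoidHom.ker_eq_bot_iff]
  by_contra hker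
  have hnt : Nontrivial (sym5Hom hx hy hz hw hxz hxw hyw hxy hyz hzw).ker :=
    (Subgroup.nontrivial_iff_ne_bot _).2 hker
  have hle := Equiv.Perm.alternatingGroup_le_of_normal (α := Fin 5) (by simp) hnt
  have hmem : (Equiv.swap 0 1 * Equiv.swap 2 3 : Equiv.Perm (Fin 5)) ∈ alternatingGroup (Fin 5) := by
    rw [Equiv.Perm.mem_alternatingGroup]
    decide
  have h2 := MonoidHom.mem_ker.1 (hle hmem)
  rw [map_mul, sym5Hom_swap01, sym5Hom_swap23] at h2
  apply hne
  calc x = x * (z * z) := by rw [hz, mul_one]
    _ = (x * z) * z := by group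
    _ = z := by rw [h2, one_mul]

end

end Cfsg.Agent.Lib.Helper8
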