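import Mathlib
import Cfsg.Prelude.Def_SporadicB
import Cfsg.Agent.Lib.Helper8.Fischer
import Cfsg.Agent.Lib.Helper8.Fischer2
import Cfsg.Agent.Lib.Helper8.Fischer3
import Cfsg.Agent.Lib.Helper8.Sym5

/-!
# Fischer: if `O(⟨D_x⟩)` is not central in `⟨D_x⟩` then `G` is the symmetric group of degree 5
-/

set_option autoImplicit false

namespace Cfsg.Agent.Lib.Helper8

open Cfsg.Agent.Lib.Helper89

variable {G : Type*} [Group G] {D : Set G}

local notation:75 g:76 " ⋆ " x:75 => g * x * g⁻¹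

/-! ### strings of type `A₄` -/

/-- a string `a - b - c - d` of members of `D` -/
structure Str4 (D : Set G) (a b c d : G) : Prop where
  ha : a ∈ D
  hb : b ∈ D
  hc : c ∈ D
  hd : d ∈ D
  nab : ¬ Commute a b
  nbc : ¬ Commute b c
  ncd : ¬ Commute c d
  cac : Commute a c
  cad : Commute a d
  cbd : Commute b d

theorem Str4.exists_hom (hT : Cfsg.IsThreeTranspositionSet D) {a b c d : G} (h : Str4 D a b c d) :
    ∃ φ : Equiv.Perm (Fin 5) →* G, φ (Equiv.swap 0 1) = a ∧ φ (Equiv.swap 1 2) = b ∧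
      φ (Equiv.swap 2 3) = c ∧ φ (Equiv.swap 3 4) = d ∧ Function.Injective φ := by
  have hx := tt_mul_self hT h.ha
  have hy := tt_mul_self hT h.hb
  have hz := tt_mul_self hT h.hc
  have hw := tt_mul_self hT h.hd
  have hxz : c * a = a * c := h.cac.eq.symm
  have hxw : d * a = a * d := h.cad.eq.symm
  have hyw : d * b = b * d := h.cbd.eq.symm
  have hxy : b * a * b = a * b * a := (tt_braid hT h.ha h.hb h.nab).symm
  have hyz : c * b * c = b * c * b := (tt_braid hT h.hb h.hc h.nbc).symm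
  have hzw : d * c * d = c * d * c := (tt_braid hT h.hc h.hd h.ncd).symm
  refine ⟨sym5Hom hx hy hz hw hxz hxw hyw hxy hyz hzw, sym5Hom_swap01 .., sym5Hom_swap12 ..,
    sym5Hom_swap23 .., sym5Hom_swap34 .., sym5Hom_injective _ _ _ _ _ _ _ _ _ _ ?_⟩
  rintro rfl
  exact h.ncd h.cad

/-- the longest element reverses a string -/
theorem Str4.exists_reverse (hT : Cfsg.IsThreeTranspositionSet D) {a b c d : G}
    (h : Str4 D a b c d) : ∃ g : G, g ⋆ a = d ∧ g ⋆ b = c ∧ g ⋆ c = b ∧ g ⋆ d = a := by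
  obtain ⟨φ, h1, h2, h3, h4, -⟩ := h.exists_hom hT
  set σ : Equiv.Perm (Fin 5) := Equiv.swap 0 4 * Equiv.swap 1 3 with hσ
  have key : ∀ u v : Equiv.Perm (Fin 5), σ * u * σ⁻¹ = v → (φ σ) ⋆ (φ u) = φ v := by
    intro u v h
    rw [← h]; simp only [map_mul, map_inv]
  refine ⟨φ σ, ?_, ?_, ?_, ?_⟩
  · have := key (Equiv.swap 0 1) (Equiv.swap 3 4) (by decide)
    rwa [h1, h4] at this
  · have := key (Equiv.swap 1 2) (Equiv.swap 2 3) (by decide)
    rwa [h2, h3] at this
  · have := key (Equiv.swap 2 3) (Equiv.swap 1 2) (by decide)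
    rwa [h2, h3] at this
  · have := key (Equiv.swap 3 4) (Equiv.swap 0 1) (by decide)
    rwa [h1, h4] at this

/-! ### the relation `D_x ∩ D_y = D_x ∩ D_w` -/

/-- `y` and `w` have the same commuting partners inside `D_x`. -/
def WR (D : Set G) (x y w : G) : Prop := Dp D x ∩ Dp D y = Dp D x ∩ Dp D w

theorem WR.conj (hD : Cfsg.IsThreeTranspositionClass D) (g : G) {x y w : G} (h : WR D x y w) :
    WR D (g ⋆ x) (g ⋆ y) (g ⋆ w) := by
  unfold WR at h ⊢
  rw [(Dp_eqv hD).image_eq, (Dp_eqv hD).image_eq, (Dp_eqv hD).image_eq,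
    ← Set.image_inter (cj_injective g), ← Set.image_inter (cj_injective g), h]

/-- Claim A: transport of the relation along a string. -/
theorem WR_string (hD : Cfsg.IsThreeTranspositionClass D) {x c e y : G} (h : Str4 D x c e y)
    (hW : WR D y x c) : WR D x y e := by
  obtain ⟨g, h1, h2, -, h4⟩ := h.exists_reverse hD.1
  have := hW.conj hD g
  rwa [h1, h2, h4] at this

/-- Elements of `D_x` stay in `D_x` under conjugation by an element commuting with `x`. -/
theorem Dp_conj_mem (hD : Cfsg.IsThreeTranspositionClass D) {g x z : G} (hg : Commute g x)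
    (hz : z ∈ Dp D x) : g ⋆ z ∈ Dp D x := by
  have := Dp_eqv hD g x z hz
  rwa [cj_eq_self_iff.2 hg] at this

theorem closure_Dp_commute {x h : G} (hh : h ∈ Subgroup.closure (Dp D x)) : Commute h x := by
  have hle : Subgroup.closure (Dp D x) ≤ Subgroup.centralizer {x} := by
    rw [Subgroup.closure_le]
    intro y hy
    rw [SetLike.mem_coe, Subgroup.mem_centralizer_singleton_iff]
    exact hy.2.2.eq.symm
  have := hle hh
  rw [Subgroup.mem_centralizer_singleton_iff] at this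
  exact this

/-- A subgroup of `⟨D_x⟩` normalized by `⟨D_x⟩`, without involutions and not centralized by `D_x`
produces a non-trivial `W`-class of `D_x`. -/
theorem exists_WR_of_odd (hD : Cfsg.IsThreeTranspositionClass D) {x : G}
    (N : Subgroup G) (hNH : N ≤ Subgroup.closure (Dp D x))
    (hN1 : ∀ h ∈ Subgroup.closure (Dp D x), ∀ n ∈ N, h ⋆ n ∈ N)
    (hN2 : ∀ n ∈ N, n ^ 2 = 1 → n = 1) (hnc : ∃ n ∈ N, ∃ y ∈ Dp D x, ¬ Commute n y) :
    ∃ y ∈ Dp D x, ∃ w ∈ Dp D x, ¬ Commute y w ∧ WR D x y w := by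
  have hT := hD.1
  obtain ⟨n, hn, y, hy, hny⟩ := hnc
  have hw : n ⋆ y ∈ Dp D x := Dp_conj_mem hD (closure_Dp_commute (hNH hn)) hy
  -- general inclusion
  have incl : ∀ u ∈ Dp D x, ∀ v ∈ Dp D x, v * u ∈ N → Dp D x ∩ Dp D u ⊆ Dp D v := by
    intro u hu v hv huv z hz
    have hz2 := tt_mul_self hT hz.1.1
    have hu2 := tt_mul_self hT hu.1
    have hv2 := tt_mul_self hT hv.1
    have huz : Commute u z := hz.2.2.2
    have hsq : (u * z) ^ 2 = 1 := by
      rw [pow_two]
      calc u * z * (u * z) = u * (z * u) * z := by group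
        _ = u * (u * z) * z := by rw [huz.eq]
        _ = (u * u) * (z * z) := by group
        _ = 1 := by rw [hu2, hz2, one_mul]
    have huzH : u * z ∈ Subgroup.closure (Dp D x) :=
      mul_mem (Subgroup.subset_closure hu) (Subgroup.subset_closure hz.1)
    have hno3 : (v * z) ^ 3 ≠ 1 := by
      intro h3
      set ν := v * u with hν
      set t := u * z with ht
      have hvz : v * z = ν * t := by
        rw [hν, ht]
        calc v * z = v * (u * u) * z := by rw [hu2, mul_one]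
          _ = v * u * (u * z) := by group
      have ht1 : t⁻¹ = t := by
        rw [inv_eq_iff_mul_eq_one, ← pow_two]; exact hsq
      have e1 : (ν * t) ^ 3 = ν * (t ⋆ ν) * ν * t := by
        rw [ht1]
        calc (ν * t) ^ 3 = ν * t * ν * (t * ν * t) := by
              simp only [pow_succ, pow_zero, one_mul, mul_assoc]
          _ = ν * t * ν * t * (t ^ 2) * ν * t := by rw [hsq]; group
          _ = ν * (t * ν * t) * ν * t := by rw [hsq]; group
      rw [hvz, e1] at h3
      have hmem : ν * (t ⋆ ν) * ν ∈ N := mul_mem (mul_mem huv (hN1 t huzH ν huv)) huv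
      have ht' : t ∈ N := by
        have : t = (ν * (t ⋆ ν) * ν)⁻¹ := eq_inv_of_mul_eq_one_right h3
        rw [this]; exact inv_mem hmem
      have h5 := hN2 t ht' hsq
      have h6 : z = u := by
        have := eq_inv_of_mul_eq_one_right h5
        rwa [tt_inv hT hu.1] at this
      exact hz.2.2.1 h6
    refine ⟨hz.1.1, ?_, ?_⟩
    · rintro rfl
      apply hno3
      rw [hz2, one_pow]
    · rcases hT.2 v hv.1 z hz.1.1 with h | h
      · exact commute_of_sq hv2 hz2 h
      · exact absurd h hno3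
  have hyH : y ∈ Subgroup.closure (Dp D x) := Subgroup.subset_closure hy
  have hy1 := tt_inv hT hy.1
  have hm1 : (n ⋆ y) * y ∈ N := by
    have : (n ⋆ y) * y = n * (y ⋆ n⁻¹) := by rw [hy1]; group
    rw [this]
    exact mul_mem hn (hN1 y hyH _ (inv_mem hn))
  have hm2 : y * (n ⋆ y) ∈ N := by
    have : y * (n ⋆ y) = (y ⋆ n) * n⁻¹ := by rw [hy1]; group
    rw [this]
    exact mul_mem (hN1 y hyH _ hn) (inv_mem hn)
  refine ⟨y, hy, n ⋆ y, hw, ?_, ?_⟩
  · intro hc
    have hsq : (y * (n ⋆ y)) ^ 2 = 1 := by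
      rw [pow_two]
      calc y * (n ⋆ y) * (y * (n ⋆ y)) = y * ((n ⋆ y) * y) * (n ⋆ y) := by group
        _ = y * (y * (n ⋆ y)) * (n ⋆ y) := by rw [hc.eq]
        _ = (y * y) * ((n ⋆ y) * (n ⋆ y)) := by group
        _ = 1 := by rw [tt_mul_self hT hy.1, tt_mul_self hT hw.1, one_mul]
    have h1 := hN2 _ hm2 hsq
    have h2 : n ⋆ y = y := by
      have := eq_inv_of_mul_eq_one_right h1
      rwa [hy1] at this
    exact hny (cj_eq_self_iff.1 h2)
  · apply Set.Subset.antisymm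
    · exact fun z hz => ⟨hz.1, incl y hy _ hw hm1 hz⟩
    · exact fun z hz => ⟨hz.1, incl _ hw y hy hm2 hz⟩

/-! ### the commuting graph is triangle free -/

theorem inter_empty_aux [Finite G] (hD : Cfsg.IsThreeTranspositionClass D) (hK : KerProp D)
    (hw0 : ∃ a ∈ D, ∃ b ∈ D, a ≠ b ∧ Commute a b) {x y w c : G} (hx : x ∈ D)
    (hy : y ∈ Dp D x) (hw : w ∈ Dp D x) (hyw : ¬ Commute y w) (h : WR D x y w)
    (hc : c ∈ Dp D y) (hcw : c ∉ Dp D w) : Dp D x ∩ Dp D y = ∅ := by
  have hT := hD.1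
  have hcw' : ¬ Commute c w := by
    intro hcom
    apply hcw
    refine ⟨hc.1, ?_, hcom.symm⟩
    rintro rfl
    exact hyw hc.2.2
  have hcx : ¬ Commute c x := by
    intro hcom
    have hne : c ≠ x := by
      rintro rfl
      exact hcw' hw.2.2
    have h1 : c ∈ Dp D x ∩ Dp D y := ⟨⟨hc.1, hne, hcom.symm⟩, hc⟩
    rw [h] at h1
    exact hcw h1.2
  -- `c` lies in the `W`-class of `x` in `D_y`
  have hW2 : WR D y x c := by
    apply WR_string hD (x := y) (c := w) (e := c) (y := x) _ h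
    exact ⟨hy.1, hw.1, hc.1, hx, hyw, fun hh => hcw' hh.symm, hcx, hc.2.2, hy.2.2.symm,
      hw.2.2.symm⟩
  -- first case
  have L1 : ∀ e ∈ Dp D x, ¬ Commute e y → ¬ Commute e c → ∀ z ∈ Dp D x ∩ Dp D y, Commute e z := by
    intro e he hey hec z hz
    have hs : Str4 D x c e y :=
      ⟨hx, hc.1, he.1, hy.1, fun hh => hcx hh.symm, fun hh => hec hh.symm, hey, he.2.2, hy.2.2,
        hc.2.2.symm⟩
    have h3 : WR D x y e := WR_string hD hs hW2
    rw [h3] at hz
    exact hz.2.2.2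
  have L2 : ∀ e ∈ Dp D x, ¬ Commute e y → ∀ z ∈ Dp D x ∩ Dp D y, Commute e z := by
    intro e he hey z hz
    by_cases hec : Commute e c
    · have hzw : Commute w z := by
        have hz' := hz
        rw [h] at hz'
        exact hz'.2.2.2
      have hew : ¬ Commute e w := by
        intro hcom
        have hne : e ≠ w := by
          rintro rfl
          exact hcw' hec.symm
        have h1 : e ∈ Dp D x ∩ Dp D w := ⟨he, he.1, hne, hcom.symm⟩
        rw [← h] at h1
        exact hey h1.2.2.2.symm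
      have he' : w ⋆ e ∈ Dp D x := Dp_conj_mem hD hw.2.2.symm he
      have hback : w ⋆ (w ⋆ e) = e := tt_star_star hT hw.1 e
      have he'c : ¬ Commute (w ⋆ e) c := by
        intro hcom
        -- `w = e ⋆ (w ⋆ e)`
        have h1 : w ⋆ e = e ⋆ w := tt_star_comm hT hw.1 he.1 (fun hh => hew hh.symm)
        have h2 : e ⋆ (w ⋆ e) = w := by rw [h1]; exact tt_star_star hT he.1 w
        apply hcw'
        rw [← h2]
        exact (((hec.mul_left hcom).mul_left hec.inv_left)).symm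
      have he'z : Commute (w ⋆ e) z := by
        by_cases h5 : Commute (w ⋆ e) y
        · by_cases h6 : w ⋆ e = y
          · rw [h6]; exact hz.2.2.2
          · exfalso
            have h7 : w ⋆ e ∈ Dp D x ∩ Dp D y := ⟨he', he'.1, h6, h5.symm⟩
            rw [h] at h7
            have h8 : Commute w (w ⋆ e) := h7.2.2.2
            apply hew
            rw [← hback]
            exact (((Commute.refl w).mul_right h8).mul_right (Commute.refl w).inv_right).symm
        · exact L1 _ he' h5 he'c z hz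
      rw [← hback]
      exact (hzw.mul_left he'z).mul_left hzw.inv_left
    · exact L1 e he hey hec z hz
  -- invariance
  have hinv : ∀ g ∈ Subgroup.closure (Dp D x), ∀ z ∈ Dp D x ∩ Dp D y, g ⋆ z ∈ Dp D x ∩ Dp D y := by
    intro g hg
    apply conj_mem_of_mem_closure (fun b hb => tt_inv hT hb.1) _ hg
    intro b hb z hz
    by_cases hby : Commute b y
    · exact ⟨Dp_conj_mem hD hb.2.2.symm hz.1, Dp_conj_mem hD hby hz.2⟩
    · rw [cj_eq_self_iff.2 (L2 b hb hby z hz)]
      exact hz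
  by_contra hne
  obtain ⟨z, hz⟩ := Set.nonempty_iff_ne_empty.2 hne
  obtain ⟨g, hg, hgz⟩ := conn hD hK hw0 hx z hz.1 y hy
  have := hinv g hg z hz
  rw [hgz] at this
  exact this.2.2.1 rfl

theorem inter_empty_of_WR [Finite G] (hD : Cfsg.IsThreeTranspositionClass D) (hK : KerProp D)
    (hw0 : ∃ a ∈ D, ∃ b ∈ D, a ≠ b ∧ Commute a b) {x y w : G} (hx : x ∈ D)
    (hy : y ∈ Dp D x) (hw : w ∈ Dp D x) (hyw : ¬ Commute y w) (h : WR D x y w) :
    Dp D x ∩ Dp D y = ∅ := by
  have hne : Dp D y ≠ Dp D w := by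
    intro heq
    have := w_trivial hD hK hw0 hy.1 hw.1 heq
    rw [this] at hyw
    exact hyw (Commute.refl w)
  by_cases hsub : Dp D y ⊆ Dp D w
  · have : ¬ Dp D w ⊆ Dp D y := fun h2 => hne (Set.Subset.antisymm hsub h2)
    obtain ⟨c, hc, hc'⟩ := Set.not_subset.1 this
    rw [h]
    exact inter_empty_aux hD hK hw0 hx hw hy (fun hh => hyw hh.symm) h.symm hc hc'
  · obtain ⟨c, hc, hc'⟩ := Set.not_subset.1 hsub
    exact inter_empty_aux hD hK hw0 hx hy hw hyw h hc hc'

/-- triangle freeness of the commuting graph -/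
def TF (D : Set G) : Prop := ∀ a ∈ D, ∀ b ∈ Dp D a, Dp D a ∩ Dp D b = ∅

theorem TF_of_inter_empty [Finite G] (hD : Cfsg.IsThreeTranspositionClass D) (hK : KerProp D)
    (hw0 : ∃ a ∈ D, ∃ b ∈ D, a ≠ b ∧ Commute a b) {x y : G} (hx : x ∈ D)
    (hy : y ∈ Dp D x) (h : Dp D x ∩ Dp D y = ∅) : TF D := by
  intro a ha b hb
  have hR := sig hD hK hw0 x hx y hy.1 hy.2.1.symm hy.2.2 a ha b hb.1 hb.2.1.symm hb.2.2
  have h1 := ncard_inter_eq_of_R2 (Dp_eqv hD) hR
  rw [h, Set.ncard_empty] at h1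
  exact (Set.ncard_eq_zero (Set.toFinite _)).1 h1

theorem TF.not_commute (h : TF D) {a u v : G} (ha : a ∈ D) (hu : u ∈ Dp D a) (hv : v ∈ Dp D a)
    (hne : u ≠ v) : ¬ Commute u v := by
  intro hc
  have : v ∈ Dp D a ∩ Dp D u := ⟨hv, hv.1, hne.symm, hc⟩
  rw [h a ha u hu] at this
  exact this

/-! ### counting modulo 3 -/

/-- fixed point congruence for the conjugation action of a `p`-subgroup on an invariant set -/
theorem ncard_modEq_fixed [Finite G] {p : ℕ} [Fact p.Prime] (Q : Subgroup G) (hQ : IsPGroup p Q)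
    (S : Set G) (hS : ∀ q ∈ Q, ∀ s ∈ S, q ⋆ s ∈ S) :
    S.ncard ≡ {s | s ∈ S ∧ ∀ q ∈ Q, Commute q s}.ncard [MOD p] := by
  let _ : MulAction Q S :=
    { smul := fun q s => ⟨(q : G) ⋆ (s : G), hS q q.2 s s.2⟩
      one_smul := fun s => Subtype.ext (by
        show ((1 : Q) : G) ⋆ (s : G) = s
        simp)
      mul_smul := fun q r s => Subtype.ext (by
        show ((q * r : Q) : G) ⋆ (s : G) = (q : G) ⋆ ((r : G) ⋆ (s : G))
        rw [Subgroup.coe_mul, cj_mul]) }
  have h := hQ.card_modEq_card_fixedPoints S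
  have h1 : Nat.card S = S.ncard := rfl
  have h2 : Nat.card (MulAction.fixedPoints Q S) = {s | s ∈ S ∧ ∀ q ∈ Q, Commute q s}.ncard := by
    have h3 : {s | s ∈ S ∧ ∀ q ∈ Q, Commute q s} =
        Subtype.val '' (MulAction.fixedPoints Q S) := by
      ext s
      constructor
      · rintro ⟨hs, hq⟩
        refine ⟨⟨s, hs⟩, ?_, rfl⟩
        intro q
        exact Subtype.ext (cj_eq_self_iff.2 (hq q q.2))
      · rintro ⟨⟨s, hs⟩, hfix, rfl⟩
        refine ⟨hs, fun q hq => ?_⟩
        have := congrArg Subtype.val (hfix ⟨q, hq⟩)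
        exact cj_eq_self_iff.1 this
    rw [h3, Set.ncard_image_of_injective _ Subtype.val_injective]
    rfl
  rw [h1, h2] at h
  exact h

/-- A member of `D` commuting with the product of two non-commuting members commutes with both. -/
theorem commute_of_commute_mul (hT : Cfsg.IsThreeTranspositionSet D) {s a b : G} (hs : s ∈ D)
    (ha : a ∈ D) (hb : b ∈ D) (hab : ¬ Commute a b) (h : Commute s (a * b)) :
    Commute s a ∧ Commute s b := by
  have ha2 := tt_mul_self hT ha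
  have hs2 := tt_mul_self hT hs
  have hb2 := tt_mul_self hT hb
  have key : Commute s a := by
    by_contra hsa
    apply hab
    have hbr := tt_braid hT hs ha hsa
    -- `a s a` commutes with `b a`
    have h1 : Commute (a * s * a) (b * a) := by
      have : Commute (a ⋆ s) (a ⋆ (a * b)) := (Commute.conj_iff a).2 h
      rw [tt_inv hT ha] at this
      have e : a * (a * b) * a = b * a := by
        calc a * (a * b) * a = (a * a) * b * a := by group
          _ = b * a := by rw [ha2, one_mul]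
      rwa [e] at this
    have h2 : Commute (a * s * a) (a * b) := by
      have e : a * b = (b * a)⁻¹ := by
        rw [mul_inv_rev, tt_inv hT ha, tt_inv hT hb]
      rw [e]; exact h1.inv_right
    -- `s * (a s a) = a * s`
    have h3 : s * (a * s * a) = a * s := by
      calc s * (a * s * a) = (s * a * s) * a := by group
        _ = (a * s * a) * a := by rw [hbr]
        _ = a * s * (a * a) := by group
        _ = a * s := by rw [ha2, mul_one]
    have h4 : Commute (a * s) (a * b) := by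
      rw [← h3]; exact h.mul_left h2
    have h5 : Commute a (a * b) := by
      have e : (a * s) * s = a := by rw [mul_assoc, hs2, mul_one]
      have := h4.mul_left h
      rwa [e] at this
    have h6 : Commute a (a⁻¹ * (a * b)) := (Commute.refl a).inv_right.mul_right h5
    rwa [inv_mul_cancel_left] at h6
  refine ⟨key, ?_⟩
  have : Commute s (a⁻¹ * (a * b)) := key.inv_right.mul_right h
  rwa [inv_mul_cancel_left] at this

theorem cube_of_not_commute (hT : Cfsg.IsThreeTranspositionSet D) {a b : G} (ha : a ∈ D)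
    (hb : b ∈ D) (h : ¬ Commute a b) : (a * b) ^ 3 = 1 := by
  rcases hT.2 a ha b hb with h2 | h2
  · exact absurd (commute_of_sq (tt_mul_self hT ha) (tt_mul_self hT hb) h2) h
  · exact h2

/-- In the triangle free situation a subset of `D_a` invariant under two different members of
`D_a` has size divisible by 3. -/
theorem ncard_modEq_zero_of_TF [Finite G] (hD : Cfsg.IsThreeTranspositionClass D) (hTF : TF D)
    {a z₁ z₂ : G} (ha : a ∈ D) (h1 : z₁ ∈ Dp D a) (h2 : z₂ ∈ Dp D a) (hne : z₁ ≠ z₂) (S : Set G)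
    (hSa : S ⊆ Dp D a) (hS1 : ∀ s ∈ S, z₁ ⋆ s ∈ S) (hS2 : ∀ s ∈ S, z₂ ⋆ s ∈ S) :
    S.ncard ≡ 0 [MOD 3] := by
  have hT := hD.1
  have : Fact (Nat.Prime 3) := ⟨Nat.prime_three⟩
  have hnc := hTF.not_commute ha h1 h2 hne
  have hQ : IsPGroup 3 (Subgroup.zpowers (z₁ * z₂)) :=
    isPGroup_three_zpowers (cube_of_not_commute hT h1.1 h2.1 hnc)
  have hinv : ∀ q ∈ Subgroup.zpowers (z₁ * z₂), ∀ s ∈ S, q ⋆ s ∈ S := by
    intro q hq
    have hq' : q ∈ Subgroup.closure ({z₁, z₂} : Set G) := by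
      have hle : Subgroup.zpowers (z₁ * z₂) ≤ Subgroup.closure ({z₁, z₂} : Set G) := by
        rw [Subgroup.zpowers_le]
        exact mul_mem (Subgroup.subset_closure (by simp)) (Subgroup.subset_closure (by simp))
      exact hle hq
    apply conj_mem_of_mem_closure _ _ hq'
    · rintro g (rfl | rfl)
      · exact tt_inv hT h1.1
      · exact tt_inv hT h2.1
    · rintro g (rfl | rfl)
      · exact hS1
      · exact hS2
  have h := ncard_modEq_fixed _ hQ S hinv
  have hempty : {s | s ∈ S ∧ ∀ q ∈ Subgroup.zpowers (z₁ * z₂), Commute q s} = ∅ := by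
    rw [Set.eq_empty_iff_forall_notMem]
    rintro s ⟨hs, hq⟩
    have h3 := (hq _ (Subgroup.mem_zpowers _)).symm
    obtain ⟨h4, h5⟩ := commute_of_commute_mul hT (hSa hs).1 h1.1 h2.1 hnc h3
    by_cases h6 : s = z₁
    · rw [h6] at h5; exact hnc h5
    · exact hTF.not_commute ha (hSa hs) h1 h6 h4
  rw [hempty, Set.ncard_empty] at h
  exact h

theorem ncard_D_modEq_one [Finite G] (hD : Cfsg.IsThreeTranspositionClass D) (hK : KerProp D)
    (hw0 : ∃ a ∈ D, ∃ b ∈ D, a ≠ b ∧ Commute a b) (hTF : TF D) {x y w : G} (hx : x ∈ D)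
    (hy : y ∈ Dp D x) (hw : w ∈ Dp D x) (hne : y ≠ w) : D.ncard ≡ 1 [MOD 3] := by
  have hT := hD.1
  have : Fact (Nat.Prime 3) := ⟨Nat.prime_three⟩
  set Q := Subgroup.closure {t : G | ∃ d ∈ Dp D x, ∃ e ∈ Dp D x, t = d * e} with hQdef
  have hQ : IsPGroup 3 Q := by
    apply widthOne_subset
    · exact fun d hd => tt_mul_self hT hd.1
    · exact fun d hd e he => Dp_conj_mem hD hd.2.2.symm he
    · intro d hd e he
      by_cases hde : d = e
      · rw [hde, tt_mul_self hT he.1, one_pow]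
      · exact cube_of_not_commute hT hd.1 he.1 (hTF.not_commute hx hd he hde)
  have hQle : Q ≤ Subgroup.closure (Dp D x) := by
    rw [hQdef, Subgroup.closure_le]
    rintro _ ⟨d, hd, e, he, rfl⟩
    exact mul_mem (Subgroup.subset_closure hd) (Subgroup.subset_closure he)
  have h := ncard_modEq_fixed Q hQ D (fun q _ s hs => ttc_conj_mem hD q hs)
  have hfix : {s | s ∈ D ∧ ∀ q ∈ Q, Commute q s} = {x} := by
    ext s
    constructor
    · rintro ⟨hs, hq⟩
      rw [Set.mem_singleton_iff]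
      have hall : ∀ u ∈ Dp D x, Commute s u := by
        intro u hu
        obtain ⟨v, hv, hvu⟩ : ∃ v ∈ Dp D x, u ≠ v := by
          by_cases huy : u = y
          · exact ⟨w, hw, by rw [huy]; exact hne⟩
          · exact ⟨y, hy, huy⟩
        have h1 : Commute s (u * v) :=
          (hq _ (Subgroup.subset_closure ⟨u, hu, v, hv, rfl⟩)).symm
        exact (commute_of_commute_mul hT hs hu.1 hv.1 (hTF.not_commute hx hu hv hvu) h1).1
      have hsn : s ∉ Dp D x := by
        intro hsx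
        obtain ⟨v, hv, hvu⟩ : ∃ v ∈ Dp D x, s ≠ v := by
          by_cases huy : s = y
          · exact ⟨w, hw, by rw [huy]; exact hne⟩
          · exact ⟨y, hy, huy⟩
        exact hTF.not_commute hx hsx hv hvu (hall v hv)
      have hsub : Dp D x ⊆ Dp D s := by
        intro u hu
        refine ⟨hu.1, ?_, hall u hu⟩
        rintro rfl
        exact hsn hu
      have heq := (Dp_eqv hD).eq_of_subset hD hx hs hsub
      exact (w_trivial hD hK hw0 hx hs heq).symm
    · rintro rfl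
      exact ⟨hx, fun q hq => closure_Dp_commute (hQle hq)⟩
  rw [hfix, Set.ncard_singleton] at h
  exact h

/-- `μ = 1`. -/
theorem common_unique [Finite G] (hD : Cfsg.IsThreeTranspositionClass D) (hK : KerProp D)
    (hw0 : ∃ a ∈ D, ∃ b ∈ D, a ≠ b ∧ Commute a b) (hTF : TF D) {x y w : G} (hx : x ∈ D)
    (hy : y ∈ Dp D x) (hw : w ∈ Dp D x) (hne : y ≠ w) {a b : G} (ha : a ∈ D) (hb : b ∈ D)
    (hab : ¬ Commute a b) :
    (∃ z, z ∈ Dp D a ∩ Dp D b) ∧ ∀ z ∈ Dp D a ∩ Dp D b, ∀ z' ∈ Dp D a ∩ Dp D b, z = z' := by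
  have hT := hD.1
  have : Fact (Nat.Prime 3) := ⟨Nat.prime_three⟩
  have hQ : IsPGroup 3 (Subgroup.zpowers (a * b)) :=
    isPGroup_three_zpowers (cube_of_not_commute hT ha hb hab)
  have h := ncard_modEq_fixed _ hQ D (fun q _ s hs => ttc_conj_mem hD q hs)
  have hfix : {s | s ∈ D ∧ ∀ q ∈ Subgroup.zpowers (a * b), Commute q s} = Dp D a ∩ Dp D b := by
    ext s
    constructor
    · rintro ⟨hs, hq⟩
      have h3 := (hq _ (Subgroup.mem_zpowers _)).symm
      obtain ⟨h4, h5⟩ := commute_of_commute_mul hT hs ha hb hab h3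
      refine ⟨⟨hs, ?_, h4.symm⟩, ⟨hs, ?_, h5.symm⟩⟩
      · rintro rfl; exact hab h5
      · rintro rfl; exact hab h4.symm
    · rintro ⟨h4, h5⟩
      refine ⟨h4.1, ?_⟩
      rintro q ⟨k, rfl⟩
      exact (h4.2.2.mul_left h5.2.2).zpow_left k
  rw [hfix] at h
  have h1 := (ncard_D_modEq_one hD hK hw0 hTF hx hy hw hne).symm.trans h
  have huniq : ∀ z ∈ Dp D a ∩ Dp D b, ∀ z' ∈ Dp D a ∩ Dp D b, z = z' := by
    intro z hz z' hz'
    by_contra hzz
    have h0 := ncard_modEq_zero_of_TF hD hTF ha hz.1 hz'.1 hzz (Dp D a ∩ Dp D b)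
      Set.inter_subset_left
      (fun s hs => ⟨Dp_conj_mem hD hz.1.2.2.symm hs.1, Dp_conj_mem hD hz.2.2.2.symm hs.2⟩)
      (fun s hs => ⟨Dp_conj_mem hD hz'.1.2.2.symm hs.1, Dp_conj_mem hD hz'.2.2.2.symm hs.2⟩)
    have := h1.trans h0
    exact absurd this (by decide)
  refine ⟨?_, huniq⟩
  by_contra hemp
  have hempty : Dp D a ∩ Dp D b = ∅ := by
    rw [Set.eq_empty_iff_forall_notMem]
    exact fun z hz => hemp ⟨z, hz⟩
  rw [hempty, Set.ncard_empty] at h1
  exact absurd h1 (by decide)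

/-! ### `|D_x| ≤ 3` -/

theorem exists_ne_mem_Dp [Finite G] (hD : Cfsg.IsThreeTranspositionClass D) {x y w : G}
    (hx : x ∈ D) (hy : y ∈ Dp D x) (hw : w ∈ Dp D x) (hne : y ≠ w) {a u : G} (ha : a ∈ D) :
    ∃ v ∈ Dp D a, v ≠ u := by
  obtain ⟨g, rfl⟩ := ttc_isConj hD hx ha
  by_cases h : g ⋆ y = u
  · refine ⟨g ⋆ w, Dp_eqv hD g x w hw, ?_⟩
    rw [← h]
    exact fun hh => hne (cj_injective g hh).symm
  · exact ⟨g ⋆ y, Dp_eqv hD g x y hy, h⟩

theorem Dp_subset_three [Finite G] (hD : Cfsg.IsThreeTranspositionClass D) (hTF : TF D)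
    (hmu : ∀ a ∈ D, ∀ b ∈ D, ¬ Commute a b →
      ∀ z ∈ Dp D a ∩ Dp D b, ∀ z' ∈ Dp D a ∩ Dp D b, z = z')
    {x y p : G} (hx : x ∈ D) (hy : y ∈ Dp D x) (hp : p ∈ Dp D x) (hpy : p ≠ y) :
    Dp D x ⊆ {y, p, y * p * y} := by
  have hT := hD.1
  have : Fact (Nat.Prime 3) := ⟨Nat.prime_three⟩
  intro q hq
  by_contra hcon
  simp only [Set.mem_insert_iff, Set.mem_singleton_iff, not_or] at hcon
  obtain ⟨hqy, hqp, hqypy⟩ := hcon
  have npy : ¬ Commute p y := hTF.not_commute hx hp hy hpy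
  have nqy : ¬ Commute q y := hTF.not_commute hx hq hy hqy
  set a := p ⋆ y with ha
  set b := q ⋆ y with hb
  set e := b ⋆ a with he
  have haD : a ∈ Dp D x := Dp_conj_mem hD hp.2.2.symm hy
  have hbD : b ∈ Dp D x := Dp_conj_mem hD hq.2.2.symm hy
  have heD : e ∈ Dp D x := Dp_conj_mem hD hbD.2.2.symm haD
  have hab : a ≠ b := by
    intro h
    rw [ha, hb, tt_star_comm hT hp.1 hy.1 npy, tt_star_comm hT hq.1 hy.1 nqy] at h
    exact hqp (cj_injective y h).symm
  have nab : ¬ Commute a b := hTF.not_commute hx haD hbD hab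
  have hea : e ⋆ a = b := by
    have h1 : e = a * b * a := by
      rw [he, tt_star_comm hT hbD.1 haD.1 (fun h => nab h.symm), tt_inv hT haD.1]
    rw [h1]
    exact (swap_star hT haD.1 hbD.1 nab).1
  -- the 3-element `n`
  set Q := Subgroup.closure {t : G | ∃ d ∈ Dp D x, ∃ e ∈ Dp D x, t = d * e} with hQdef
  have hQ : IsPGroup 3 Q := by
    apply widthOne_subset
    · exact fun d hd => tt_mul_self hT hd.1
    · exact fun d hd e he => Dp_conj_mem hD hd.2.2.symm he
    · intro d hd e he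
      by_cases hde : d = e
      · rw [hde, tt_mul_self hT he.1, one_pow]
      · exact cube_of_not_commute hT hd.1 he.1 (hTF.not_commute hx hd he hde)
  set g := q * e * p with hg
  have hgy : Commute g y := by
    rw [← cj_eq_self_iff, hg, cj_mul, cj_mul, ← ha, hea, hb]
    exact tt_star_star hT hq.1 y
  have hgx : Commute g x := (hq.2.2.symm.mul_left heD.2.2.symm).mul_left hp.2.2.symm
  have hnQ : g * y ∈ Q := by
    have : g * y = (q * e) * (p * y) := by rw [hg]; group
    rw [this]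
    exact mul_mem (Subgroup.subset_closure ⟨q, hq, e, heD, rfl⟩)
      (Subgroup.subset_closure ⟨p, hp, y, hy, rfl⟩)
  have hn3 : IsPGroup 3 (Subgroup.zpowers (g * y)) := hQ.to_le (Subgroup.zpowers_le.2 hnQ)
  have hny : Commute (g * y) y := hgy.mul_left (Commute.refl y)
  have hnx : Commute (g * y) x := hgx.mul_left hy.2.2.symm
  have hxy : x ∈ Dp D y := ⟨hx, hy.2.1.symm, hy.2.2.symm⟩
  have hfp := ncard_modEq_fixed _ hn3 (Dp D y) (by
    rintro _ ⟨k, rfl⟩ s hs
    exact Dp_conj_mem hD (hny.zpow_left k) hs)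
  obtain ⟨c₀, hc₀, hc₀x⟩ := exists_ne_mem_Dp hD hx hy hp hpy.symm (u := x) hy.1
  have h0 := ncard_modEq_zero_of_TF hD hTF hy.1 hxy hc₀ hc₀x.symm (Dp D y) subset_rfl
    (fun s hs => Dp_conj_mem hD hxy.2.2.symm hs) (fun s hs => Dp_conj_mem hD hc₀.2.2.symm hs)
  have h1 := hfp.symm.trans h0
  set F := {s | s ∈ Dp D y ∧ ∀ q ∈ Subgroup.zpowers (g * y), Commute q s} with hF
  have hxF : x ∈ F := by
    refine ⟨hxy, ?_⟩
    rintro _ ⟨k, rfl⟩
    exact hnx.zpow_left k
  have hFcard : 1 < F.ncard := by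
    have hpos : 0 < F.ncard := (Set.ncard_pos (Set.toFinite _)).2 ⟨x, hxF⟩
    have hdvd : 3 ∣ F.ncard := (Nat.modEq_zero_iff_dvd).1 h1
    have := Nat.le_of_dvd hpos hdvd
    omega
  obtain ⟨c, hcF, hcx⟩ := Set.exists_ne_of_one_lt_ncard hFcard x
  have hc : c ∈ Dp D y := hcF.1
  have hnc : Commute (g * y) c := hcF.2 _ (Subgroup.mem_zpowers _)
  have hgc : Commute g c := by
    have h2 : Commute (g * y * y) c := hnc.mul_left hc.2.2
    rwa [mul_assoc, tt_mul_self hT hy.1, mul_one] at h2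
  have ncx : ¬ Commute c x := hTF.not_commute hy.1 hc hxy hcx
  have hyxc : y ∈ Dp D x ∩ Dp D c := ⟨hy, hy.1, hc.2.1.symm, hc.2.2.symm⟩
  have nc_of : ∀ r ∈ Dp D x, r ≠ y → ¬ Commute c r := by
    intro r hr hry hcr
    apply hry
    apply hmu x hx c hc.1 (fun h => ncx h.symm) r ⟨hr, hr.1, ?_, hcr⟩ y hyxc
    rintro rfl
    exact ncx hr.2.2.symm
  have ncp := nc_of p hp hpy
  have ncq := nc_of q hq hqy
  -- `c` commutes with `x ⋆ (r ⋆ c)`
  have hS4 : ∀ r ∈ Dp D x, ¬ Commute c r → Commute c (x ⋆ (r ⋆ c)) := by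
    intro r hr hcr
    have h3 := (string_swap hT hx hr.1 hc.1 hr.2.2 (fun h => ncx h.symm)
      (fun h => hcr h.symm)).2.2
    rw [cj_eq_self_iff] at h3
    have h4 : Commute (c⁻¹ * (c * (x * r * c * r * x))) c := (Commute.refl c).inv_left.mul_left h3
    rw [inv_mul_cancel_left] at h4
    have h5 : x ⋆ (r ⋆ c) = x * r * c * r * x := by
      rw [tt_inv hT hx, tt_inv hT hr.1]; group
    rw [h5]
    exact h4.symm
  have hfp' := hS4 p hp ncp
  have hfq' := hS4 q hq ncq
  set v := p ⋆ c with hv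
  have hvD : v ∈ D := ttc_conj_mem hD p hc.1
  have hev : e ⋆ v = q ⋆ c := by
    have h2 : g ⋆ c = c := cj_eq_self_iff.2 hgc
    rw [hg, cj_mul, cj_mul, ← hv] at h2
    have h3 := congrArg (fun t => q ⋆ t) h2
    rwa [tt_star_star hT hq.1] at h3
  have nvx : ¬ Commute v x := by
    intro h
    apply ncx
    have h2 : Commute (p ⋆ c) (p ⋆ x) := by rwa [cj_eq_self_iff.2 hp.2.2.symm]
    exact (Commute.conj_iff p).1 h2
  have nev : ¬ Commute e v := by
    intro h
    have h1 : a ∈ Dp D x ∩ Dp D v := ⟨haD, Dp_eqv hD p c y hyxc.2⟩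
    have h2 : e ∈ Dp D x ∩ Dp D v := by
      refine ⟨heD, heD.1, ?_, h.symm⟩
      rintro h3
      rw [h3] at heD
      exact nvx heD.2.2.symm
    have h3 := hmu x hx v hvD (fun h => nvx h.symm) e h2 a h1
    rw [he, cj_eq_self_iff] at h3
    exact nab h3.symm
  have hce : Commute c e := by
    have h2 : Commute c ((x ⋆ (q ⋆ c)) ⋆ (x ⋆ (p ⋆ c))) :=
      (hfq'.mul_right hfp').mul_right hfq'.inv_right
    have h3 : (x ⋆ (q ⋆ c)) ⋆ (x ⋆ (p ⋆ c)) = x ⋆ ((q ⋆ c) ⋆ (p ⋆ c)) := by group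
    rw [h3, ← hv, ← hev] at h2
    have h4 : (e ⋆ v) ⋆ v = e := by
      have h5 : e ⋆ v = v * e * v := by
        rw [tt_star_comm hT heD.1 hvD nev, tt_inv hT hvD]
      rw [h5]
      exact (swap_star hT hvD heD.1 (fun h => nev h.symm)).1
    rw [h4, cj_eq_self_iff.2 heD.2.2] at h2
    exact h2
  have hey : e = y := by
    apply hmu x hx c hc.1 (fun h => ncx h.symm) e ⟨heD, heD.1, ?_, hce⟩ y hyxc
    rintro h3
    rw [h3] at heD
    exact ncx heD.2.2.symm
  -- final contradiction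
  have h6 : a = b ⋆ y := by
    rw [← hey, he]
    exact (tt_star_star hT hbD.1 a).symm
  have h7 : b ⋆ y = q := by
    have h8 : b = y * q * y := by
      rw [hb, tt_star_comm hT hq.1 hy.1 nqy, tt_inv hT hy.1]
    rw [h8]
    exact (swap_star hT hy.1 hq.1 (fun h => nqy h.symm)).1
  apply hqypy
  rw [← h7, ← h6, ha, tt_star_comm hT hp.1 hy.1 npy, tt_inv hT hy.1]

/-! ### the isomorphism with the symmetric group of degree 5 -/

theorem fischer_sym5 [Finite G] (hD : Cfsg.IsThreeTranspositionClass D) (hK : KerProp D)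
    (hw0 : ∃ a ∈ D, ∃ b ∈ D, a ≠ b ∧ Commute a b) {x y w : G} (hx : x ∈ D)
    (hy : y ∈ Dp D x) (hw : w ∈ Dp D x) (hyw : ¬ Commute y w) (h : WR D x y w) :
    Nonempty (G ≃* Equiv.Perm (Fin 5)) := by
  have hT := hD.1
  have hne : y ≠ w := by
    rintro rfl
    exact hyw (Commute.refl y)
  have hTF : TF D := TF_of_inter_empty hD hK hw0 hx hy (inter_empty_of_WR hD hK hw0 hx hy hw hyw h)
  have hmu := fun a ha b hb hab => (common_unique hD hK hw0 hTF hx hy hw hne (a := a) (b := b)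
    ha hb hab).2
  have hex := fun a ha b hb hab => (common_unique hD hK hw0 hTF hx hy hw hne (a := a) (b := b)
    ha hb hab).1
  have hxy : x ∈ Dp D y := ⟨hx, hy.2.1.symm, hy.2.2.symm⟩
  obtain ⟨c, hc, hcx⟩ := exists_ne_mem_Dp hD hx hy hw hne (u := x) hy.1
  have ncx : ¬ Commute c x := hTF.not_commute hy.1 hc hxy hcx
  have hyxc : y ∈ Dp D x ∩ Dp D c := ⟨hy, hy.1, hc.2.1.symm, hc.2.2.symm⟩
  have ncw : ¬ Commute c w := by
    intro hcw
    apply hne
    refine (hmu x hx c hc.1 (fun h => ncx h.symm) w ⟨hw, hw.1, ?_, hcw⟩ y hyxc).symm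
    rintro rfl
    exact ncx hw.2.2.symm
  have hs : Str4 D x c w y :=
    ⟨hx, hc.1, hw.1, hy.1, fun h => ncx h.symm, ncw, fun h => hyw h.symm, hw.2.2, hy.2.2,
      hc.2.2.symm⟩
  obtain ⟨φ, h1, h2, h3, h4, hinj⟩ := hs.exists_hom hT
  have hxR : x ∈ φ.range := ⟨_, h1⟩
  have hcR : c ∈ φ.range := ⟨_, h2⟩
  have hwR : w ∈ φ.range := ⟨_, h3⟩
  have hyR : y ∈ φ.range := ⟨_, h4⟩
  have hDx : Dp D x ⊆ {y, w, y * w * y} := Dp_subset_three hD hTF hmu hx hy hw hne.symm
  -- every `D_z` with `z ∈ D_x` lies in the range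
  have hpart : ∀ z ∈ Dp D x, ∀ c' ∈ Dp D z, c' ≠ x → c' ∈ φ.range → Dp D z ⊆ φ.range := by
    intro z hz c' hc' hc'x hc'R s hs
    have hxz : x ∈ Dp D z := ⟨hx, hz.2.1.symm, hz.2.2.symm⟩
    have := Dp_subset_three hD hTF hmu hz.1 hxz hc' hc'x hs
    rcases this with rfl | rfl | rfl
    · exact hxR
    · exact hc'R
    · exact mul_mem (mul_mem hxR hc'R) hxR
  have hcj : ∀ g ∈ φ.range, Commute g x → g ⋆ c ∈ Dp D (g ⋆ y) ∧ g ⋆ c ≠ x ∧ g ⋆ c ∈ φ.range := by
    intro g hg hgx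
    refine ⟨Dp_eqv hD g y c hc, ?_, mul_mem (mul_mem hg hcR) (inv_mem hg)⟩
    intro h5
    apply hcx
    apply cj_injective g
    show g ⋆ c = g ⋆ x
    rw [h5, cj_eq_self_iff.2 hgx]
  have hall : ∀ z ∈ Dp D x, Dp D z ⊆ φ.range := by
    intro z hz
    rcases hDx hz with rfl | rfl | rfl
    · exact hpart z hz c hc hcx hcR
    · have hg : y * z * y ∈ φ.range := mul_mem (mul_mem hyR hwR) hyR
      obtain ⟨h5, h6, h7⟩ := hcj _ hg ((hy.2.2.symm.mul_left hw.2.2.symm).mul_left hy.2.2.symm)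
      rw [(swap_star hT hy.1 hw.1 hyw).1] at h5
      exact hpart z hz _ h5 h6 h7
    · obtain ⟨h5, h6, h7⟩ := hcj w hwR hw.2.2.symm
      have h8 : w ⋆ y = y * w * y := by
        rw [tt_star_comm hT hw.1 hy.1 (fun h => hyw h.symm), tt_inv hT hy.1]
      rw [h8] at h5
      exact hpart _ hz _ h5 h6 h7
  have hDR : D ⊆ φ.range := by
    intro s hs
    by_cases hsx : s = x
    · rw [hsx]; exact hxR
    · by_cases hcom : Commute x s
      · rcases hDx ⟨hs, hsx, hcom⟩ with rfl | rfl | rfl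
        · exact hyR
        · exact hwR
        · exact mul_mem (mul_mem hyR hwR) hyR
      · obtain ⟨z, hz⟩ := hex x hx s hs hcom
        exact hall z hz.1 ⟨hs, hz.2.2.1.symm, hz.2.2.2.symm⟩
  have hsurj : Function.Surjective φ := by
    rw [← MonoidHom.range_eq_top, eq_top_iff, ← hD.2.2, Subgroup.closure_le]
    exact hDR
  exact ⟨(MulEquiv.ofBijective φ ⟨hinj, hsurj⟩).symm⟩

end Cfsg.Agent.Lib.Helper8
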